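import Mathlib
import Cfsg.Prelude.Def_Solvable
import Cfsg.Prelude.Def_Transfer
import Cfsg.Prelude.Def_LieClassical
import Cfsg.Agent.Lib.PGroup.Basic
import Cfsg.Agent.Lib.Classical.Symp.SimpleMatrix
import Cfsg.Agent.Lib.Compute.Schur2.SpTwo

/-!
# Abstract part of the centraliser computation: a criterion for extraspecial groups and
the identification of the `2`-core of an extension of a `2`-group by `Sp₆(2)`.
-/

set_option autoImplicit false

namespace Cfsg.Agent.Lib.Sporadic.Co2Cent.Abs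

open Cfsg Cfsg.Agent.Lib.Compute.Schur2.SpTwo
open scoped commutatorElement

/-- A convenient sufficient criterion for being extraspecial. -/
structure ExCrit (X : Type*) [Group X] : Prop where
  ex : ∃ z : X, z ≠ 1 ∧ (∀ x : X, (∀ y : X, x * y = y * x) ↔ x = 1 ∨ x = z) ∧
    (∀ x : X, x * x = 1 ∨ x * x = z)
  nc : ∃ a b : X, a * b ≠ b * a

theorem ExCrit.of_equiv {X Y : Type*} [Group X] [Group Y] (e : X ≃* Y) (h : ExCrit X) : ExCrit Y := by
  obtain ⟨⟨z, hz, h1, h2⟩, ⟨a, b, hab⟩⟩ := h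
  refine ⟨⟨e z, ?_, fun y => ?_, fun y => ?_⟩, ⟨e a, e b, ?_⟩⟩
  · intro h
    apply hz
    apply e.injective
    rw [h, map_one]
  · obtain ⟨x, rfl⟩ := e.surjective y
    have h3 := h1 x
    constructor
    · intro h4
      have h5 : ∀ y : X, x * y = y * x := by
        intro y
        apply e.injective
        rw [map_mul, map_mul]
        exact h4 _
      rcases h3.1 h5 with h6 | h6
      · left; rw [h6, map_one]
      · right; rw [h6]
    · intro h4 y'
      obtain ⟨y', rfl⟩ := e.surjective y'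
      have h5 : x = 1 ∨ x = z := by
        rcases h4 with h4 | h4
        · left; apply e.injective; rw [h4, map_one]
        · right; exact e.injective h4
      rw [← map_mul, ← map_mul, h3.2 h5 y']
  · obtain ⟨x, rfl⟩ := e.surjective y
    rcases h2 x with h3 | h3
    · left; rw [← map_mul, h3, map_one]
    · right; rw [← map_mul, h3]
  · intro h
    apply hab
    apply e.injective
    rw [map_mul, map_mul]
    exact h

theorem ExCrit.isExtraspecial {X : Type} [Group X] [Finite X] (hp : IsPGroup 2 X) (h : ExCrit X) :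
    IsExtraspecial 2 X := by
  haveI : Fact (Nat.Prime 2) := ⟨Nat.prime_two⟩
  obtain ⟨⟨z, hz, h1, h2⟩, ⟨a, b, hab⟩⟩ := h
  have hzc : ∀ x : X, x ∈ Subgroup.center X ↔ x = 1 ∨ x = z := by
    intro x
    rw [← h1, Subgroup.mem_center_iff]
    constructor
    · intro h y; exact (h y).symm
    · intro h y; exact (h y).symm
  have hsq : ∀ x : X, x * x ∈ Subgroup.center X := fun x => (hzc _).2 (h2 x)
  have hcomm : ∀ x y : X, ⁅x, y⁆ ∈ Subgroup.center X := by
    intro x y
    have e : ⁅x, y⁆ = (x * y) * (x * y) * (y⁻¹ * y⁻¹) * (y * x⁻¹ * y⁻¹) * (y * x⁻¹ * y⁻¹) * (y * y) *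
        (y⁻¹ * y⁻¹) := by
      simp only [commutatorElement_def]
      group
    have h3 : ⁅x, y⁆ = (x * y) * (x * y) * (y⁻¹ * y⁻¹) * ((y * x⁻¹ * y⁻¹) * (y * x⁻¹ * y⁻¹)) := by
      simp only [commutatorElement_def]
      group
    rw [h3]
    exact mul_mem (mul_mem (hsq _) (hsq _)) (hsq _)
  have hf : frattini X ≤ Subgroup.center X := by
    rw [Cfsg.Agent.Lib.PGroup.Basic.frattini_le_iff hp]
    refine ⟨fun x => ?_, hcomm⟩
    rw [pow_two]
    exact hsq x
  have hc : commutator X ≤ frattini X := Cfsg.Agent.Lib.PGroup.Basic.commutator_le_frattini hp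
  have hne : ⁅a, b⁆ ≠ 1 := by
    intro h
    apply hab
    rwa [commutatorElement_eq_one_iff_mul_comm] at h
  have hzm : z ∈ commutator X := by
    have h3 : ⁅a, b⁆ ∈ commutator X :=
      Subgroup.commutator_mem_commutator (Subgroup.mem_top _) (Subgroup.mem_top _)
    rcases (hzc _).1 (hf (hc h3)) with h4 | h4
    · exact absurd h4 hne
    · rwa [← h4]
  have hZc : Subgroup.center X ≤ commutator X := by
    intro x hx
    rcases (hzc x).1 hx with rfl | rfl
    · exact one_mem _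
    · exact hzm
  refine ⟨⟨hp, le_antisymm hf (hZc.trans hc), le_antisymm (hc.trans hf) hZc⟩, ?_⟩
  rw [Nat.card_eq_two_iff]
  refine ⟨1, ⟨z, (hzc z).2 (Or.inr rfl)⟩, ?_, ?_⟩
  · intro h
    exact hz (congrArg Subtype.val h).symm
  · ext ⟨x, hx⟩
    simp only [Set.mem_insert_iff, Set.mem_singleton_iff, Set.mem_univ, iff_true]
    rcases (hzc x).1 hx with rfl | rfl
    · left; rfl
    · right; rfl

/-- `Sp₆(2)` is simple. -/
theorem isSimple_Sp6 : IsSimpleGroup Sp6 := by
  obtain ⟨e⟩ := nonempty_equiv_PSp (F := ZMod 2) (by simp)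
  haveI : IsSimpleGroup (Cfsg.PSp 3 (ZMod 2)) :=
    Cfsg.Agent.Lib.Classical.Symp.SimpleMatrix.isSimpleGroup_PSp 3 (by norm_num) (by norm_num)
  exact e.isSimpleGroup

/-- `Sp₆(2)` has no non-trivial normal `2`-subgroup. -/
theorem normal_two_eq_bot (N : Subgroup Sp6) (hN : N.Normal) (h2 : IsPGroup 2 N) : N = ⊥ := by
  haveI := isSimple_Sp6
  rcases hN.eq_bot_or_eq_top with h | h
  · exact h
  · exfalso
    subst h
    obtain ⟨k, hk⟩ := IsPGroup.iff_card.1 h2
    rw [Nat.card_congr Subgroup.topEquiv.toEquiv, card_Sp6] at hk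
    have h3 : 3 ∣ 2 ^ k := by rw [← hk]; norm_num
    have := Nat.Prime.dvd_of_dvd_pow Nat.prime_three h3
    omega

/-- The `2`-core of an extension of a `2`-group by `Sp₆(2)`. -/
theorem pCore_eq_ker {C : Type*} [Group C] (ψ : C →* Sp6) (hs : Function.Surjective ψ)
    (hK : IsPGroup 2 ψ.ker) : pCore 2 C = ψ.ker := by
  apply le_antisymm
  · apply sSup_le
    rintro N ⟨hn, hp⟩
    have h1 : (N.map ψ).Normal := hn.map ψ hs
    have h2 : IsPGroup 2 (N.map ψ) := hp.map ψ
    have h3 := normal_two_eq_bot _ h1 h2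
    rwa [Subgroup.map_eq_bot_iff] at h3
  · exact le_sSup ⟨inferInstance, hK⟩

/-- The final abstract statement. -/
theorem final_abs {C : Type} [Group C] (ψ : C →* Sp6) (hs : Function.Surjective ψ)
    {Q : Type} [Group Q] (e : ψ.ker ≃* Q) (hQ : Nat.card Q = 2 ^ 9) (hcr : ExCrit Q)
    [hN : (pCore 2 C).Normal] :
    IsExtraspecial 2 (pCore 2 C) ∧ Nat.card (pCore 2 C) = 2 ^ 9 ∧
      Nonempty (C ⧸ pCore 2 C ≃* Matrix.symplecticGroup (Fin 3) (ZMod 2)) := by
  haveI : Fact (Nat.Prime 2) := ⟨Nat.prime_two⟩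
  have hcard : Nat.card ψ.ker = 2 ^ 9 := by rw [Nat.card_congr e.toEquiv, hQ]
  have hK : IsPGroup 2 ψ.ker := IsPGroup.of_card hcard
  have hE := pCore_eq_ker ψ hs hK
  have e2 : pCore 2 C ≃* ψ.ker := MulEquiv.subgroupCongr hE
  have hcard2 : Nat.card (pCore 2 C) = 2 ^ 9 := by rw [Nat.card_congr e2.toEquiv, hcard]
  haveI : Finite (pCore 2 C) := Nat.finite_of_card_ne_zero (by rw [hcard2]; norm_num)
  refine ⟨ExCrit.isExtraspecial (IsPGroup.of_card hcard2) (hcr.of_equiv (e2.trans e).symm), hcard2, ?_⟩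
  exact ⟨(QuotientGroup.quotientMulEquivOfEq hE).trans (QuotientGroup.quotientKerEquivOfSurjective ψ hs)⟩

end Cfsg.Agent.Lib.Sporadic.Co2Cent.Abs
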