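import Mathlib
import Cfsg.Agent.Lib.Sporadic.LeechKey
import Cfsg.Agent.Lib.Sporadic.LeechA0
import Cfsg.Agent.Lib.Sporadic.M24Act

/-!
# The `E₇` root system of the octad in the Leech lattice

The vectors of norm `32` of the lattice supported on the octad `octad0` (coordinates
`[23, 0, 1, 2, 3, 5, 14, 17]`) and orthogonal to `(4, 4, 0²²)` are listed by `rt8`.
-/

set_option autoImplicit false

namespace Cfsg.Agent.Lib.Sporadic.Co2Cent.Roots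

open Cfsg Cfsg.Agent.Lib.Sporadic.GolayCore Cfsg.Agent.Lib.Sporadic.LeechBasic
  Cfsg.Agent.Lib.Sporadic.LeechNorm Cfsg.Agent.Lib.Sporadic.LeechFacts
  Cfsg.Agent.Lib.Sporadic.LeechAut Cfsg.Agent.Lib.Sporadic.LeechMat
  Cfsg.Agent.Lib.Sporadic.LeechKey Cfsg.Agent.Lib.Sporadic.M24Chain

abbrev V := GolayPt → ℤ

/-- The 24-list with prescribed coordinates on the octad. -/
def to24 (a : List ℤ) : List ℤ :=
  [a.getD 1 0, a.getD 2 0, a.getD 3 0, a.getD 4 0, 0, a.getD 5 0, 0, 0, 0, 0, 0, 0, 0, 0,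
    a.getD 6 0, 0, 0, a.getD 7 0, 0, 0, 0, 0, 0, a.getD 0 0]

/-- The vector of a list of eight coordinates. -/
def vec8 (a : List ℤ) : V := vecOf (to24 a)

/-- The inner product in terms of the eight coordinates. -/
def dot8 (a b : List ℤ) : ℤ :=
  a.getD 0 0 * b.getD 0 0 + a.getD 1 0 * b.getD 1 0 + a.getD 2 0 * b.getD 2 0 +
    a.getD 3 0 * b.getD 3 0 + a.getD 4 0 * b.getD 4 0 + a.getD 5 0 * b.getD 5 0 +
    a.getD 6 0 * b.getD 6 0 + a.getD 7 0 * b.getD 7 0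

theorem dotInt_vecOf (l l' : List ℤ) : dotInt (vecOf l) (vecOf l') =
    ((List.range 24).map fun i => l.getD i 0 * l'.getD i 0).sum :=
  sum_golayPt fun i => l.getD i 0 * l'.getD i 0

theorem dotInt_vec8 (a b : List ℤ) : dotInt (vec8 a) (vec8 b) = dot8 a b := by
  unfold vec8
  rw [dotInt_vecOf]
  have : ((List.range 24).map fun i => (to24 a).getD i 0 * (to24 b).getD i 0).sum =
      a.getD 1 0 * b.getD 1 0 + (a.getD 2 0 * b.getD 2 0 + (a.getD 3 0 * b.getD 3 0 +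
      (a.getD 4 0 * b.getD 4 0 + (0 * 0 + (a.getD 5 0 * b.getD 5 0 + (0 * 0 + (0 * 0 + (0 * 0 + (0 * 0 +
      (0 * 0 + (0 * 0 + (0 * 0 + (0 * 0 + (a.getD 6 0 * b.getD 6 0 + (0 * 0 + (0 * 0 +
      (a.getD 7 0 * b.getD 7 0 + (0 * 0 + (0 * 0 + (0 * 0 + (0 * 0 + (0 * 0 +
      (a.getD 0 0 * b.getD 0 0 + 0))))))))))))))))))))))) := rfl
  rw [this]
  unfold dot8
  ring

theorem sum_vec8 (a : List ℤ) : ∑ p, vec8 a p = a.getD 0 0 + a.getD 1 0 + a.getD 2 0 + a.getD 3 0 +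
    a.getD 4 0 + a.getD 5 0 + a.getD 6 0 + a.getD 7 0 := by
  have h := sum_golayPt fun i => (to24 a).getD i 0
  have e : ∑ p, vec8 a p = ∑ p : GolayPt, (fun i => (to24 a).getD i 0) (idx p) := rfl
  rw [e, h]
  have : ((List.range 24).map fun i => (to24 a).getD i 0).sum =
      a.getD 1 0 + (a.getD 2 0 + (a.getD 3 0 + (a.getD 4 0 + (0 + (a.getD 5 0 + (0 + (0 + (0 + (0 +
      (0 + (0 + (0 + (0 + (a.getD 6 0 + (0 + (0 + (a.getD 7 0 + (0 + (0 + (0 + (0 + (0 +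
      (a.getD 0 0 + 0))))))))))))))))))))))) := rfl
  rw [this]
  ring

theorem sqNorm_eq_dotInt (x : V) : sqNorm x = dotInt x x := by
  unfold sqNorm dotInt
  exact Finset.sum_congr rfl fun i _ => pow_two _

theorem sqNorm_vec8 (a : List ℤ) : sqNorm (vec8 a) = dot8 a a := by
  rw [sqNorm_eq_dotInt, dotInt_vec8]

/-- Vectors supported on the octad. -/
def SupO (x : V) : Prop := ∀ p, p ∉ ofMask octad0 → x p = 0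

/-- The eight coordinates of a vector. -/
def co8 (x : V) : List ℤ := [x (pt 23), x (pt 0), x (pt 1), x (pt 2), x (pt 3), x (pt 5), x (pt 14), x (pt 17)]

theorem not_mem_O {i : ℕ} (hi : i < 24) (h : octad0.testBit i = false) : pt i ∉ ofMask octad0 := by
  rw [mem_ofMask, idx_pt hi, h]
  simp

theorem vec8_co8 {x : V} (hx : SupO x) : vec8 (co8 x) = x := by
  have key : ∀ i, i < 24 → vec8 (co8 x) (pt i) = x (pt i) := by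
    intro i hi
    unfold vec8 vecOf
    rw [idx_pt hi]
    interval_cases i <;>
      first
      | rfl
      | exact (hx _ (not_mem_O (by norm_num) (by decide))).symm
  funext p
  rw [← pt_idx p]
  exact key _ (idx_lt p)

theorem supO_vec8 (a : List ℤ) : SupO (vec8 a) := by
  intro p hp
  rw [mem_ofMask] at hp
  unfold vec8 vecOf
  have h := idx_lt p
  generalize idx p = i at *
  interval_cases i <;> first | rfl | exact absurd (by decide) hp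


set_option maxHeartbeats 0 in
def rt8 : List (List ℤ) := [
  [4,-4,0,0,0,0,0,0],
  [2,-2,-2,-2,-2,-2,-2,2],
  [2,-2,-2,-2,-2,-2,2,-2],
  [2,-2,-2,-2,-2,2,-2,-2],
  [2,-2,-2,-2,-2,2,2,2],
  [2,-2,-2,-2,2,-2,-2,-2],
  [2,-2,-2,-2,2,-2,2,2],
  [2,-2,-2,-2,2,2,-2,2],
  [2,-2,-2,-2,2,2,2,-2],
  [2,-2,-2,2,-2,-2,-2,-2],
  [2,-2,-2,2,-2,-2,2,2],
  [2,-2,-2,2,-2,2,-2,2],
  [2,-2,-2,2,-2,2,2,-2],
  [2,-2,-2,2,2,-2,-2,2],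
  [2,-2,-2,2,2,-2,2,-2],
  [2,-2,-2,2,2,2,-2,-2],
  [2,-2,-2,2,2,2,2,2],
  [2,-2,2,-2,-2,-2,-2,-2],
  [2,-2,2,-2,-2,-2,2,2],
  [2,-2,2,-2,-2,2,-2,2],
  [2,-2,2,-2,-2,2,2,-2],
  [2,-2,2,-2,2,-2,-2,2],
  [2,-2,2,-2,2,-2,2,-2],
  [2,-2,2,-2,2,2,-2,-2],
  [2,-2,2,-2,2,2,2,2],
  [2,-2,2,2,-2,-2,-2,2],
  [2,-2,2,2,-2,-2,2,-2],
  [2,-2,2,2,-2,2,-2,-2],
  [2,-2,2,2,-2,2,2,2],
  [2,-2,2,2,2,-2,-2,-2],
  [2,-2,2,2,2,-2,2,2],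
  [2,-2,2,2,2,2,-2,2],
  [2,-2,2,2,2,2,2,-2],
  [0,0,-4,-4,0,0,0,0],
  [0,0,-4,0,-4,0,0,0],
  [0,0,-4,0,0,-4,0,0],
  [0,0,-4,0,0,0,-4,0],
  [0,0,-4,0,0,0,0,-4],
  [0,0,-4,0,0,0,0,4],
  [0,0,-4,0,0,0,4,0],
  [0,0,-4,0,0,4,0,0],
  [0,0,-4,0,4,0,0,0],
  [0,0,-4,4,0,0,0,0],
  [0,0,0,-4,-4,0,0,0],
  [0,0,0,-4,0,-4,0,0],
  [0,0,0,-4,0,0,-4,0],
  [0,0,0,-4,0,0,0,-4],
  [0,0,0,-4,0,0,0,4],
  [0,0,0,-4,0,0,4,0],
  [0,0,0,-4,0,4,0,0],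
  [0,0,0,-4,4,0,0,0],
  [0,0,0,0,-4,-4,0,0],
  [0,0,0,0,-4,0,-4,0],
  [0,0,0,0,-4,0,0,-4],
  [0,0,0,0,-4,0,0,4],
  [0,0,0,0,-4,0,4,0],
  [0,0,0,0,-4,4,0,0],
  [0,0,0,0,0,-4,-4,0],
  [0,0,0,0,0,-4,0,-4],
  [0,0,0,0,0,-4,0,4],
  [0,0,0,0,0,-4,4,0],
  [0,0,0,0,0,0,-4,-4],
  [0,0,0,0,0,0,-4,4],
  [0,0,0,0,0,0,4,-4],
  [0,0,0,0,0,0,4,4],
  [0,0,0,0,0,4,-4,0],
  [0,0,0,0,0,4,0,-4],
  [0,0,0,0,0,4,0,4],
  [0,0,0,0,0,4,4,0],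
  [0,0,0,0,4,-4,0,0],
  [0,0,0,0,4,0,-4,0],
  [0,0,0,0,4,0,0,-4],
  [0,0,0,0,4,0,0,4],
  [0,0,0,0,4,0,4,0],
  [0,0,0,0,4,4,0,0],
  [0,0,0,4,-4,0,0,0],
  [0,0,0,4,0,-4,0,0],
  [0,0,0,4,0,0,-4,0],
  [0,0,0,4,0,0,0,-4],
  [0,0,0,4,0,0,0,4],
  [0,0,0,4,0,0,4,0],
  [0,0,0,4,0,4,0,0],
  [0,0,0,4,4,0,0,0],
  [0,0,4,-4,0,0,0,0],
  [0,0,4,0,-4,0,0,0],
  [0,0,4,0,0,-4,0,0],
  [0,0,4,0,0,0,-4,0],
  [0,0,4,0,0,0,0,-4],
  [0,0,4,0,0,0,0,4],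
  [0,0,4,0,0,0,4,0],
  [0,0,4,0,0,4,0,0],
  [0,0,4,0,4,0,0,0],
  [0,0,4,4,0,0,0,0],
  [-2,2,-2,-2,-2,-2,-2,2],
  [-2,2,-2,-2,-2,-2,2,-2],
  [-2,2,-2,-2,-2,2,-2,-2],
  [-2,2,-2,-2,-2,2,2,2],
  [-2,2,-2,-2,2,-2,-2,-2],
  [-2,2,-2,-2,2,-2,2,2],
  [-2,2,-2,-2,2,2,-2,2],
  [-2,2,-2,-2,2,2,2,-2],
  [-2,2,-2,2,-2,-2,-2,-2],
  [-2,2,-2,2,-2,-2,2,2],
  [-2,2,-2,2,-2,2,-2,2],
  [-2,2,-2,2,-2,2,2,-2],
  [-2,2,-2,2,2,-2,-2,2],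
  [-2,2,-2,2,2,-2,2,-2],
  [-2,2,-2,2,2,2,-2,-2],
  [-2,2,-2,2,2,2,2,2],
  [-2,2,2,-2,-2,-2,-2,-2],
  [-2,2,2,-2,-2,-2,2,2],
  [-2,2,2,-2,-2,2,-2,2],
  [-2,2,2,-2,-2,2,2,-2],
  [-2,2,2,-2,2,-2,-2,2],
  [-2,2,2,-2,2,-2,2,-2],
  [-2,2,2,-2,2,2,-2,-2],
  [-2,2,2,-2,2,2,2,2],
  [-2,2,2,2,-2,-2,-2,2],
  [-2,2,2,2,-2,-2,2,-2],
  [-2,2,2,2,-2,2,-2,-2],
  [-2,2,2,2,-2,2,2,2],
  [-2,2,2,2,2,-2,-2,-2],
  [-2,2,2,2,2,-2,2,2],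
  [-2,2,2,2,2,2,-2,2],
  [-2,2,2,2,2,2,2,-2],
  [-4,4,0,0,0,0,0,0]]

/-- The symplectic basis. -/
def bs8 : List (List ℤ) := [[0,0,0,0,0,4,0,4],
  [2,-2,2,-2,-2,-2,2,2],
  [0,0,-4,0,-4,0,0,0],
  [2,-2,-2,-2,2,2,-2,2],
  [2,-2,2,-2,-2,2,2,-2],
  [0,0,4,0,0,0,-4,0]]

/-- The basis as a function. -/
def bL (k : ℕ) : List ℤ := bs8.getD k []

theorem rt8_lattice : ∀ a ∈ rt8, inLattice (to24 a) = true := by decide +kernel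

theorem vec8_mem {a : List ℤ} (ha : a ∈ rt8) : vec8 a ∈ leechLattice :=
  inLattice_sound (rt8_lattice a ha)

theorem bs8_mem : ∀ k, k < 6 → bL k ∈ rt8 := by decide +kernel

/-- The form, in integers. -/
def d16 (a b : List ℤ) : ℤ := dot8 a b / 16

theorem dot8_dvd : ∀ a ∈ rt8, ∀ b ∈ rt8, dot8 a b % 16 = 0 := by decide +kernel

/-- The span identity. -/
theorem star_check : ∀ a ∈ rt8, ∀ b ∈ rt8, (d16 a b - (d16 a (bL 3) * d16 b (bL 0) + d16 a (bL 4) * d16 b (bL 1)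
    + d16 a (bL 5) * d16 b (bL 2) + d16 a (bL 0) * d16 b (bL 3) + d16 a (bL 1) * d16 b (bL 4)
    + d16 a (bL 2) * d16 b (bL 5))) % 2 = 0 := by decide +kernel

/-- Two roots with the same coordinates differ by a sign. -/
theorem class_check : ∀ a ∈ rt8, ∀ b ∈ rt8,
    ((d16 a (bL 0) - d16 b (bL 0)) % 2 = 0 ∧ (d16 a (bL 1) - d16 b (bL 1)) % 2 = 0 ∧
     (d16 a (bL 2) - d16 b (bL 2)) % 2 = 0 ∧ (d16 a (bL 3) - d16 b (bL 3)) % 2 = 0 ∧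
     (d16 a (bL 4) - d16 b (bL 4)) % 2 = 0 ∧ (d16 a (bL 5) - d16 b (bL 5)) % 2 = 0) →
    a = b ∨ a = b.map Neg.neg := by decide +kernel

/-- Connectivity of the non-orthogonality graph. -/
theorem conn_check : ∀ a ∈ rt8, dot8 a (bL 0) ≠ 0 ∨ ∃ c ∈ rt8, dot8 a c ≠ 0 ∧ dot8 c (bL 0) ≠ 0 := by
  decide +kernel

/-- The Gram matrix of the basis. -/
theorem gram_check : ∀ i, i < 6 → ∀ j, j < 6 →
    (d16 (bL i) (bL j)) % 2 = if i + 3 = j ∨ j + 3 = i then 1 else 0 := by decide +kernel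

theorem cls_two : ∀ a0 ∈ [(2 : ℤ), -2], ∀ a1 ∈ [(2 : ℤ), -2], ∀ a2 ∈ [(2 : ℤ), -2], ∀ a3 ∈ [(2 : ℤ), -2],
    ∀ a4 ∈ [(2 : ℤ), -2], ∀ a5 ∈ [(2 : ℤ), -2], ∀ a6 ∈ [(2 : ℤ), -2], ∀ a7 ∈ [(2 : ℤ), -2],
    a0 + a1 = 0 → (a0 + a1 + a2 + a3 + a4 + a5 + a6 + a7) % 8 = 0 → [a0, a1, a2, a3, a4, a5, a6, a7] ∈ rt8 := by
  decide +kernel

theorem cls_four : ∀ a0 ∈ [(0 : ℤ), 4, -4], ∀ a1 ∈ [(0 : ℤ), 4, -4], ∀ a2 ∈ [(0 : ℤ), 4, -4],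
    ∀ a3 ∈ [(0 : ℤ), 4, -4], ∀ a4 ∈ [(0 : ℤ), 4, -4], ∀ a5 ∈ [(0 : ℤ), 4, -4], ∀ a6 ∈ [(0 : ℤ), 4, -4],
    ∀ a7 ∈ [(0 : ℤ), 4, -4], a0 + a1 = 0 →
    a0 * a0 + a1 * a1 + a2 * a2 + a3 * a3 + a4 * a4 + a5 * a5 + a6 * a6 + a7 * a7 = 32 →
    [a0, a1, a2, a3, a4, a5, a6, a7] ∈ rt8 := by
  decide +kernel

theorem octad_check : ∀ m ∈ octadList, m = octad0 ∨ ∃ i ∈ List.range 24, m.testBit i = true ∧ octad0.testBit i = false := by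
  decide +kernel

theorem O_pts : ∀ k ∈ [23, 0, 1, 2, 3, 5, 14, 17], k < 24 ∧ octad0.testBit k = true := by decide

/-- The classification. -/
theorem cls {x : V} (hL : x ∈ leechLattice) (hO : SupO x) (hu : x (pt 23) + x (pt 0) = 0)
    (hn : sqNorm x = 32) : co8 x ∈ rt8 := by
  have hx := vec8_co8 hO
  have h0 : x (pt 4) = 0 := hO _ (not_mem_O (by norm_num) (by decide))
  obtain ⟨m, hm, hp, hs, _⟩ := (mem_leechLattice_iff x).1 hL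
  have hm0 : m = 0 := by
    have := hp (pt 4)
    rw [h0] at this
    simpa using this.symm
  subst hm0
  have h2 : ∀ i, x i % 2 = 0 := hp
  have hsum : (x (pt 23) + x (pt 0) + x (pt 1) + x (pt 2) + x (pt 3) + x (pt 5) + x (pt 14) + x (pt 17)) % 8 = 0 := by
    have h3 := sum_vec8 (co8 x)
    rw [hx] at h3
    rw [h3] at hs
    simpa [co8] using hs
  have hnorm : x (pt 23) * x (pt 23) + x (pt 0) * x (pt 0) + x (pt 1) * x (pt 1) + x (pt 2) * x (pt 2) +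
      x (pt 3) * x (pt 3) + x (pt 5) * x (pt 5) + x (pt 14) * x (pt 14) + x (pt 17) * x (pt 17) = 32 := by
    have h3 := sqNorm_vec8 (co8 x)
    rw [hx, hn] at h3
    rw [h3]
    rfl
  rcases shape_even hL h2 hn with ⟨m, hm, habs⟩ | ⟨a, b, _, habs⟩
  · have hm' : m = octad0 := by
      rcases octad_check m hm with h | ⟨i, hi, h3, h4⟩
      · exact h
      · exfalso
        have hi' := List.mem_range.1 hi
        have h5 := habs (pt i)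
        rw [idx_pt hi', if_pos h3, hO _ (not_mem_O hi' h4)] at h5
        simp at h5
    subst hm'
    have hv : ∀ k ∈ [23, 0, 1, 2, 3, 5, 14, 17], x (pt k) ∈ [(2 : ℤ), -2] := by
      intro k hk
      obtain ⟨h3, h4⟩ := O_pts k hk
      have h5 := habs (pt k)
      rw [idx_pt h3, if_pos h4] at h5
      simp only [List.mem_cons, List.not_mem_nil, or_false]
      omega
    exact cls_two _ (hv 23 (by simp)) _ (hv 0 (by simp)) _ (hv 1 (by simp)) _ (hv 2 (by simp))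
      _ (hv 3 (by simp)) _ (hv 5 (by simp)) _ (hv 14 (by simp)) _ (hv 17 (by simp)) hu hsum
  · have hv : ∀ k ∈ [23, 0, 1, 2, 3, 5, 14, 17], x (pt k) ∈ [(0 : ℤ), 4, -4] := by
      intro k _
      have h5 := habs (pt k)
      simp only [List.mem_cons, List.not_mem_nil, or_false]
      split_ifs at h5 <;> omega
    exact cls_four _ (hv 23 (by simp)) _ (hv 0 (by simp)) _ (hv 1 (by simp)) _ (hv 2 (by simp))
      _ (hv 3 (by simp)) _ (hv 5 (by simp)) _ (hv 14 (by simp)) _ (hv 17 (by simp)) hu hnorm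

end Cfsg.Agent.Lib.Sporadic.Co2Cent.Roots
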