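import Mathlib
import Cfsg.Prelude.Def_Spor_Conway
import Cfsg.Agent.Lib.Sporadic.Co2Cent.Roots
import Cfsg.Agent.Lib.Compute.Schur2.SpTwo

/-!
# The homomorphism to `Sp₆(2)`

`CC` is the stabiliser of `(4, 4, 0²²)` in the centraliser in `Co0` of the involution `tO`, which is
the sign change on the complement of the octad.  `CC` acts on the `E₇`-roots of the octad and thus on
their classes modulo two, which gives `psi : CC →* Sp₆(2)`.
-/

set_option autoImplicit false

namespace Cfsg.Agent.Lib.Sporadic.Co2Cent.Hom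

open Cfsg Cfsg.Agent.Lib.Sporadic.GolayCore Cfsg.Agent.Lib.Sporadic.LeechBasic
  Cfsg.Agent.Lib.Sporadic.LeechNorm Cfsg.Agent.Lib.Sporadic.LeechFacts
  Cfsg.Agent.Lib.Sporadic.LeechAut Cfsg.Agent.Lib.Sporadic.LeechMat
  Cfsg.Agent.Lib.Sporadic.LeechKey Cfsg.Agent.Lib.Sporadic.M24Chain
  Cfsg.Agent.Lib.Sporadic.LeechA0 Cfsg.Agent.Lib.Sporadic.Co2Cent.Roots
open Matrix

/-- Index type of the symplectic basis. -/
abbrev I6 : Type := Fin 3 ⊕ Fin 3

/-- Numbering of the symplectic basis. -/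
def ix : I6 → ℕ
  | .inl i => i.val
  | .inr i => i.val + 3

theorem ix_lt : ∀ i : I6, ix i < 6 := by decide

/-! ### The form -/

/-- The form modulo two. -/
def bet (x y : leechLattice) : ZMod 2 := ((dotInt (x : V) (y : V) / 16 : ℤ) : ZMod 2)

theorem bet_smul (g : Co0) (x y : leechLattice) : bet (g • x) (g • y) = bet x y := by
  unfold bet
  rw [co0_dotInt]

theorem bet_comm (x y : leechLattice) : bet x y = bet y x := by
  unfold bet
  rw [dotInt_comm]

theorem bet_smul_left (g : Co0) (x y : leechLattice) : bet (g • x) y = bet x (g⁻¹ • y) := by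
  rw [← bet_smul g x (g⁻¹ • y), smul_inv_smul]

/-- The roots as lattice vectors. -/
def rv (a : List ℤ) (ha : a ∈ rt8) : leechLattice := ⟨vec8 a, vec8_mem ha⟩

theorem bet_rv {a b : List ℤ} (ha : a ∈ rt8) (hb : b ∈ rt8) :
    bet (rv a ha) (rv b hb) = ((d16 a b : ℤ) : ZMod 2) := by
  unfold bet d16 rv
  show ((dotInt (vec8 a) (vec8 b) / 16 : ℤ) : ZMod 2) = _
  rw [dotInt_vec8]

/-- The vector `(4, 4, 0²²)` in coordinates. -/
def uL : List ℤ := [4, 4, 0, 0, 0, 0, 0, 0]

theorem vecU_eq : Spor.vecU = vec8 uL := by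
  funext p
  unfold Spor.vecU vec8 vecOf
  revert p
  decide

theorem dot_vecU (x : V) (hx : SupO x) : dotInt Spor.vecU x = 4 * (x (pt 23) + x (pt 0)) := by
  have h := dotInt_vec8 uL (co8 x)
  rw [vec8_co8 hx, ← vecU_eq] at h
  rw [h]
  simp only [dot8, uL, co8]
  show 4 * x (pt 23) + 4 * x (pt 0) + 0 * x (pt 1) + 0 * x (pt 2) + 0 * x (pt 3) + 0 * x (pt 5) +
    0 * x (pt 14) + 0 * x (pt 17) = _
  ring

/-- The set of roots: lattice vectors of norm `32` supported on the octad, orthogonal to `u`. -/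
def Rs (x : leechLattice) : Prop :=
  SupO (x : V) ∧ dotInt Spor.vecU (x : V) = 0 ∧ sqNorm (x : V) = 32

theorem rt8_props : ∀ a ∈ rt8, dot8 uL a = 0 ∧ dot8 a a = 32 := by decide +kernel

theorem rs_rv {a : List ℤ} (ha : a ∈ rt8) : Rs (rv a ha) := by
  refine ⟨supO_vec8 a, ?_, ?_⟩
  · show dotInt Spor.vecU (vec8 a) = 0
    rw [vecU_eq, dotInt_vec8]
    exact (rt8_props a ha).1
  · show sqNorm (vec8 a) = 32
    rw [sqNorm_vec8]
    exact (rt8_props a ha).2

theorem rs_form {x : leechLattice} (h : Rs x) : ∃ a, ∃ ha : a ∈ rt8, x = rv a ha := by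
  obtain ⟨h1, h2, h3⟩ := h
  rw [dot_vecU _ h1] at h2
  exact ⟨co8 x, cls x.2 h1 (by omega) h3, Subtype.ext (vec8_co8 h1).symm⟩

/-- The symplectic basis. -/
def bv (k : I6) : leechLattice := rv (bL (ix k)) (bs8_mem _ (ix_lt k))

theorem rs_bv (k : I6) : Rs (bv k) := rs_rv _

theorem zcast_of_mod {z : ℤ} (h : z % 2 = 0) : (z : ZMod 2) = 0 :=
  (ZMod.intCast_zmod_eq_zero_iff_dvd z 2).2 (by push_cast; omega)

theorem sum_I6 {M : Type*} [AddCommMonoid M] (f : I6 → M) :
    ∑ k, f k = f (.inl 0) + f (.inl 1) + f (.inl 2) + (f (.inr 0) + f (.inr 1) + f (.inr 2)) := by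
  rw [Fintype.sum_sum_type, Fin.sum_univ_three, Fin.sum_univ_three]

/-- The span identity on the roots. -/
theorem star {x y : leechLattice} (hx : Rs x) (hy : Rs y) :
    bet x y = ∑ k : I6, bet x (bv k.swap) * bet y (bv k) := by
  obtain ⟨a, ha, rfl⟩ := rs_form hx
  obtain ⟨b, hb, rfl⟩ := rs_form hy
  rw [sum_I6]
  simp only [Sum.swap_inl, Sum.swap_inr, bv, bet_rv, ha, hb]
  have h := zcast_of_mod (star_check a ha b hb)
  push_cast at h
  rw [sub_eq_zero] at h
  rw [h]
  show _ = ((d16 a (bL 3) : ℤ) : ZMod 2) * ((d16 b (bL 0) : ℤ) : ZMod 2) +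
      ((d16 a (bL 4) : ℤ) : ZMod 2) * ((d16 b (bL 1) : ℤ) : ZMod 2) +
      ((d16 a (bL 5) : ℤ) : ZMod 2) * ((d16 b (bL 2) : ℤ) : ZMod 2) +
      (((d16 a (bL 0) : ℤ) : ZMod 2) * ((d16 b (bL 3) : ℤ) : ZMod 2) +
      ((d16 a (bL 1) : ℤ) : ZMod 2) * ((d16 b (bL 4) : ℤ) : ZMod 2) +
      ((d16 a (bL 2) : ℤ) : ZMod 2) * ((d16 b (bL 5) : ℤ) : ZMod 2))
  ring

theorem ix_gram : ∀ i j : I6, (ix i + 3 = ix j ∨ ix j + 3 = ix i) ↔ i = j.swap := by decide

theorem cast_mod_two (z : ℤ) : (z : ZMod 2) = ((z % 2 : ℤ) : ZMod 2) := by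
  rw [ZMod.intCast_eq_intCast_iff]
  show z % ((2 : ℕ) : ℤ) = (z % 2) % ((2 : ℕ) : ℤ)
  push_cast
  omega

/-- The Gram matrix of the basis. -/
theorem gram (i j : I6) : bet (bv i) (bv j) = if i = j.swap then 1 else 0 := by
  unfold bv
  rw [bet_rv, cast_mod_two, gram_check _ (ix_lt i) _ (ix_lt j)]
  by_cases h : i = j.swap
  · rw [if_pos ((ix_gram i j).2 h), if_pos h]
    rfl
  · rw [if_neg (fun h' => h ((ix_gram i j).1 h')), if_neg h]
    rfl

/-! ### The involution and the group -/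

/-- The mask of the complement of the octad. -/
def ocM : ℕ := allMask ^^^ octad0

theorem ocM_lt : ocM < 2 ^ 24 := by decide

theorem ocM_code : ocM ∈ codeList := by decide +kernel

theorem oc_supp : ofMask ocM ∈ supports (golayCode : Set (GolayPt → ZMod 2)) :=
  (ofMask_mem_supports_iff ocM_lt).2 ocM_code

theorem mem_oc {p : GolayPt} : p ∈ ofMask ocM ↔ p ∉ ofMask octad0 := by
  unfold ocM
  rw [ofMask_xor_all _ (by decide), Finset.mem_compl]

/-- The involution. -/
def tO : Co0 := signCo0 (ofMask ocM) oc_supp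

theorem coe_tO_smul (x : leechLattice) : ((tO • x : leechLattice) : V) = signChange (ofMask ocM) x := rfl

theorem tO_fix_iff (x : leechLattice) : tO • x = x ↔ SupO (x : V) := by
  constructor
  · intro h p hp
    have h1 := congrFun (congrArg Subtype.val h) p
    have h2 : ((tO • x : leechLattice) : V) p = - (x : V) p := by
      rw [coe_tO_smul]
      simp only [signChange]
      rw [if_pos (mem_oc.2 hp)]
    rw [h2] at h1
    omega
  · intro h
    apply Subtype.ext
    funext p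
    rw [coe_tO_smul]
    simp only [signChange]
    split_ifs with hp
    · rw [h p (mem_oc.1 hp)]
      simp
    · rfl

/-- The group acting: the centraliser of `tO` in the stabiliser of `u`. -/
def CC : Subgroup Co0 :=
  MulAction.stabilizer Co0 Spor.leechU ⊓ Subgroup.centralizer ({tO} : Set Co0)

theorem mem_CC {g : Co0} : g ∈ CC ↔ g • Spor.leechU = Spor.leechU ∧ g * tO = tO * g := by
  rw [CC, Subgroup.mem_inf, MulAction.mem_stabilizer_iff, Subgroup.mem_centralizer_singleton_iff]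

theorem rs_smul {g : Co0} (hg : g ∈ CC) {x : leechLattice} (hx : Rs x) : Rs (g • x) := by
  obtain ⟨h1, h2⟩ := mem_CC.1 hg
  obtain ⟨hs, hu, hn⟩ := hx
  refine ⟨?_, ?_, ?_⟩
  · rw [← tO_fix_iff]
    rw [← mul_smul, ← h2, mul_smul, (tO_fix_iff x).2 hs]
  · have h3 := co0_dotInt g Spor.leechU x
    rw [h1] at h3
    exact h3.trans hu
  · rw [co0_sqNorm]
    exact hn

/-! ### The matrix -/

/-- The matrix of an element. -/
def Mat (g : Co0) : Matrix I6 I6 (ZMod 2) := fun i j => bet (g • bv j) (bv i.swap)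

/-- The coordinates of a root. -/
def cv (x : leechLattice) : I6 → ZMod 2 := fun k => bet x (bv k.swap)

theorem Mat_one : Mat 1 = 1 := by
  ext i j
  simp only [Mat, one_smul]
  rw [gram, Matrix.one_apply, Sum.swap_swap]
  by_cases h : i = j
  · subst h; simp
  · rw [if_neg (fun h' => h h'.symm), if_neg h]

theorem Mat_mul {g h : Co0} (hg : g ∈ CC) (hh : h ∈ CC) : Mat (g * h) = Mat g * Mat h := by
  ext i j
  rw [Matrix.mul_apply]
  simp only [Mat, mul_smul]
  rw [bet_smul_left, star (rs_smul hh (rs_bv j)) (rs_smul (CC.inv_mem hg) (rs_bv _))]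
  apply Finset.sum_congr rfl
  intro k _
  rw [mul_comm]
  congr 1
  rw [bet_comm, ← bet_smul_left, bet_comm]

theorem Mat_mulVec {g : Co0} (hg : g ∈ CC) {x : leechLattice} (hx : Rs x) :
    Mat g *ᵥ cv x = cv (g • x) := by
  funext i
  simp only [Matrix.mulVec, dotProduct, Mat, cv]
  rw [bet_smul_left, star hx (rs_smul (CC.inv_mem hg) (rs_bv _))]
  apply Finset.sum_congr rfl
  intro k _
  rw [mul_comm]
  congr 1
  rw [bet_smul_left, bet_comm]

theorem J_apply (i j : I6) : Matrix.J (Fin 3) (ZMod 2) i j = if i = j.swap then 1 else 0 := by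
  have hn : (-1 : ZMod 2) = 1 := by decide
  rcases i with i | i <;> rcases j with j | j <;>
    simp [Matrix.J, Matrix.one_apply, hn]

theorem J_mul_apply (A : Matrix I6 I6 (ZMod 2)) (i j : I6) :
    (Matrix.J (Fin 3) (ZMod 2) * A) i j = A i.swap j := by
  rw [Matrix.mul_apply, Finset.sum_eq_single i.swap]
  · rw [J_apply, Sum.swap_swap, if_pos rfl, one_mul]
  · intro b _ hb
    rw [J_apply, if_neg, zero_mul]
    rintro rfl
    exact hb (by simp)
  · simp

theorem Mat_symp {g : Co0} (hg : g ∈ CC) : Mat g ∈ Matrix.symplecticGroup (Fin 3) (ZMod 2) := by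
  rw [SymplecticGroup.mem_iff']
  ext i j
  rw [Matrix.mul_assoc, Matrix.mul_apply]
  simp only [J_mul_apply, Matrix.transpose_apply]
  rw [J_apply, ← gram i j, ← bet_smul g, star (rs_smul hg (rs_bv i)) (rs_smul hg (rs_bv j))]
  apply Finset.sum_congr rfl
  intro k _
  simp only [Mat, Sum.swap_swap]

/-- The homomorphism. -/
def psi : CC →* Matrix.symplecticGroup (Fin 3) (ZMod 2) :=
  MonoidHom.mk' (fun g => ⟨Mat g.1, Mat_symp g.2⟩) (fun g h => Subtype.ext (Mat_mul g.2 h.2))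

theorem coe_psi (g : CC) : ((psi g : Matrix.symplecticGroup (Fin 3) (ZMod 2)) : Matrix I6 I6 (ZMod 2)) = Mat g.1 := rfl

end Cfsg.Agent.Lib.Sporadic.Co2Cent.Hom
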