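import Mathlib
import Cfsg.Agent.Lib.Sporadic.Co2Cent.Hom
import Cfsg.Agent.Lib.Sporadic.Co2Cent.Abs
import Cfsg.Agent.Lib.Sporadic.LeechAct
import Cfsg.Agent.Lib.Sporadic.LeechMonomial

/-!
# The pointwise stabiliser of the octad frame: an extraspecial group of order `2⁹`.
-/

set_option autoImplicit false

namespace Cfsg.Agent.Lib.Sporadic.Co2Cent.PGrp

open Cfsg Cfsg.Agent.Lib.Sporadic.GolayCore Cfsg.Agent.Lib.Sporadic.LeechBasic
  Cfsg.Agent.Lib.Sporadic.LeechNorm Cfsg.Agent.Lib.Sporadic.LeechFacts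
  Cfsg.Agent.Lib.Sporadic.LeechAut Cfsg.Agent.Lib.Sporadic.LeechMat
  Cfsg.Agent.Lib.Sporadic.LeechKey Cfsg.Agent.Lib.Sporadic.M24Chain
  Cfsg.Agent.Lib.Sporadic.LeechMonomial
  Cfsg.Agent.Lib.Sporadic.LeechA0 Cfsg.Agent.Lib.Sporadic.Co2Cent.Roots
  Cfsg.Agent.Lib.Sporadic.Co2Cent.Hom Cfsg.Agent.Lib.Sporadic.Co2Cent.Abs

/-- The pointwise stabiliser of the eight vectors `8 e_p`, `p` in the octad. -/
def P : Subgroup Co0 where
  carrier := {g | ∀ p ∈ ofMask octad0, g • u8 p = u8 p}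
  one_mem' := fun p _ => one_smul _ _
  mul_mem' := fun {a b} ha hb p hp => by rw [mul_smul, hb p hp, ha p hp]
  inv_mem' := fun {a} ha p hp => by rw [inv_smul_eq_iff, ha p hp]

theorem mem_P {g : Co0} : g ∈ P ↔ ∀ p ∈ ofMask octad0, g • u8 p = u8 p := Iff.rfl

/-- The sign attached to a mask and a coordinate. -/
def sg (m k : ℕ) : ℤ := if m.testBit k = true then -1 else 1

theorem sg_mul_self (m k : ℕ) : sg m k * sg m k = 1 := by
  unfold sg
  split_ifs <;> norm_num

theorem sg_cases (m k : ℕ) : sg m k = 1 ∨ sg m k = -1 := by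
  unfold sg
  split_ifs <;> simp

theorem sg_eq_iff {m k m' k' : ℕ} : sg m k = sg m' k' ↔ m.testBit k = m'.testBit k' := by
  unfold sg
  cases m.testBit k <;> cases m'.testBit k' <;> simp

theorem sg_zero (k : ℕ) : sg 0 k = 1 := by simp [sg]

theorem coe_smul_u8 (a : ℤ) (p q : GolayPt) :
    ((a • u8 p : leechLattice) : V) q = a * (if q = p then 8 else 0) := by
  simp [coe_u8, Pi.single_apply]

theorem smul_u8_inj {a b : ℤ} {p q : GolayPt} (ha : a = 1 ∨ a = -1)
    (h : a • u8 p = b • u8 q) : p = q ∧ a = b := by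
  have h1 := congrFun (congrArg Subtype.val h) p
  rw [coe_smul_u8, coe_smul_u8, if_pos rfl] at h1
  by_cases hpq : p = q
  · subst hpq
    rw [if_pos rfl] at h1
    exact ⟨rfl, by omega⟩
  · rw [if_neg hpq] at h1
    omega

/-- The normal form of a monomial element, on the frame. -/
def Form (g : Co0) (T : List ℕ) (m : ℕ) : Prop :=
  ∀ i, i < 24 → g • u8 (pt i) = sg m (T.getD i 0) • u8 (pt (T.getD i 0))

/-- The identity table. -/
def id24 : List ℕ := List.range 24

theorem id24_getD {i : ℕ} (h : i < 24) : id24.getD i 0 = i := by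
  unfold id24
  rw [List.getD_eq_getElem _ _ (by simpa using h)]
  simp

theorem ext_form {g h : Co0} {T T' : List ℕ} {m m' : ℕ} (hg : Form g T m) (hh : Form h T' m')
    (H : ∀ i, i < 24 → T.getD i 0 = T'.getD i 0 ∧ sg m (T.getD i 0) = sg m' (T'.getD i 0)) : g = h := by
  apply co0_ext_u8
  intro p
  rw [← pt_idx p, hg _ (idx_lt p), hh _ (idx_lt p), (H _ (idx_lt p)).1, ← (H _ (idx_lt p)).1, (H _ (idx_lt p)).2,
    (H _ (idx_lt p)).1]

/-- Value of a product on the frame. -/
theorem mul_form {x y : Co0} {T T' : List ℕ} {m m' : ℕ} (hx : Form x T m) (hy : Form y T' m')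
    {i : ℕ} (hi : i < 24) (hlt : T'.getD i 0 < 24) :
    (x * y) • u8 (pt i) =
      (sg m' (T'.getD i 0) * sg m (T.getD (T'.getD i 0) 0)) • u8 (pt (T.getD (T'.getD i 0) 0)) := by
  rw [mul_smul, hy i hi, co0_map_zsmul, hx _ hlt, smul_smul]

/-! ### Data -/

/-- The words disjoint from the octad. -/
def A32 : List ℕ :=
  [0, 337856, 628112, 832080, 1161408, 1351424, 1584464, 1903248, 2141072, 2460752, 2702848, 2890176,
    3216208, 3421328, 3704512, 4038912, 4202192, 4536592, 4819776, 5024896, 5350928, 5538256, 5780352,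
    6100032, 6337856, 6656640, 6889680, 7079696, 7409024, 7612992, 7903248, 8241104]

theorem A32_code : ∀ m ∈ A32, m ∈ codeList ∧ m < 2 ^ 24 ∧ ∀ i ∈ [23, 0, 1, 2, 3, 5, 14, 17], m.testBit i = false := by
  decide +kernel

theorem A32_check : codeList.all (fun m => !([23, 0, 1, 2, 3, 5, 14, 17].all fun i => m.testBit i == false) ||
    A32.contains m) = true := by
  decide +kernel

theorem mem_A32_of_code (m : ℕ) (hm : m ∈ codeList) (h : ∀ i ∈ [23, 0, 1, 2, 3, 5, 14, 17], m.testBit i = false) :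
    m ∈ A32 := by
  have h1 := List.all_eq_true.1 A32_check m hm
  have h2 : ([23, 0, 1, 2, 3, 5, 14, 17].all fun i => m.testBit i == false) = true := by
    rw [List.all_eq_true]
    intro i hi
    rw [h i hi]
    rfl
  rw [h2] at h1
  simpa using h1

theorem A32_data : A32.length = 32 ∧ A32.Nodup := by decide +kernel

theorem tbl_data : levelTbl6.length = 16 ∧ levelTbl6.Nodup := by decide +kernel

theorem tbl_lt : ∀ T ∈ levelTbl6, ∀ i ∈ List.range 24, T.getD i 0 < 24 ∧ T.getD (T.getD i 0) 0 = i := by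
  decide +kernel

theorem tbl_O : ∀ T ∈ levelTbl6, ∀ i ∈ [23, 0, 1, 2, 3, 5, 14, 17], T.getD i 0 = i := by
  decide +kernel

theorem tbl_uniq : ∀ T ∈ levelTbl6, ∀ T' ∈ levelTbl6, (∀ i ∈ List.range 24, T.getD i 0 = T'.getD i 0) → T = T' := by
  decide +kernel

theorem mask_uniq : ∀ T ∈ levelTbl6, ∀ m ∈ A32, ∀ m' ∈ A32,
    (∀ i ∈ List.range 24, m.testBit (T.getD i 0) = m'.testBit (T.getD i 0)) → m = m' := by
  decide +kernel

theorem check_sq : ∀ T ∈ levelTbl6, ∀ m ∈ A32,
    (∀ i ∈ List.range 24, m.testBit (T.getD i 0) = m.testBit i) ∨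
    (∀ i ∈ List.range 24, (m.testBit (T.getD i 0) != m.testBit i) = ocM.testBit i) := by
  decide +kernel

theorem check_oc : ∀ T ∈ levelTbl6, ∀ i ∈ List.range 24, ocM.testBit (T.getD i 0) = ocM.testBit i := by
  decide +kernel

theorem check_id : ∀ T ∈ levelTbl6, (∀ e ∈ A32, ∀ i ∈ List.range 24, e.testBit (T.getD i 0) = e.testBit i) → T = id24 := by
  decide +kernel

theorem check_mask : ∀ m ∈ A32, (∀ T ∈ levelTbl6, ∀ i ∈ List.range 24, m.testBit (T.getD i 0) = m.testBit i) → m = 0 ∨ m = ocM := by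
  decide +kernel

theorem id24_mem : id24 ∈ levelTbl6 := by decide +kernel

theorem zero_mem_A32 : (0 : ℕ) ∈ A32 := by decide +kernel

theorem ocM_mem_A32 : ocM ∈ A32 := by decide +kernel

/-- A table different from the identity. -/
theorem tbl1_mem : [0,1,2,3,6,5,4,22,20,12,11,10,9,19,14,18,21,17,15,13,8,16,7,23] ∈ levelTbl6 := by decide +kernel

/-! ### Normal forms of the elements of `P` -/

theorem lt_of_mem_range {i : ℕ} (h : i < 24) : i ∈ List.range 24 := List.mem_range.2 h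

/-- Monomial elements and their forms. -/
theorem mono_u8 (σ : M24) (c : supports (golayCode : Set (GolayPt → ZMod 2))) (p : GolayPt) :
    monoElt σ c • u8 p = (if σ.1 p ∈ c.1 then (-1 : ℤ) else 1) • u8 (σ.1 p) := by
  apply Subtype.ext
  rw [monoElt_smul, coe_u8, signedPerm_single]
  funext q
  rw [coe_smul_u8]
  by_cases hq : q = σ.1 p
  · subst hq
    simp only [Pi.single_eq_same, if_true]
    split_ifs <;> norm_num
  · simp only [Pi.single_eq_of_ne hq, if_neg hq, mul_zero]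

theorem form_mono {T : List ℕ} (hT : goodT T = true) (hlt : ∀ i, i < 24 → T.getD i 0 < 24) {m : ℕ}
    (hm : ofMask m ∈ supports (golayCode : Set (GolayPt → ZMod 2))) :
    Form (monoElt ⟨gPerm T hT, gPerm_mem hT⟩ ⟨ofMask m, hm⟩) T m := by
  intro i hi
  rw [mono_u8]
  show (if gPerm T hT (pt i) ∈ ofMask m then (-1 : ℤ) else 1) • u8 (gPerm T hT (pt i)) = _
  rw [gPerm_pt hT hi]
  have h1 : pt (T.getD i 0) ∈ ofMask m ↔ m.testBit (T.getD i 0) = true := by
    rw [mem_ofMask, idx_pt (hlt i hi)]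
  by_cases h2 : m.testBit (T.getD i 0) = true
  · rw [if_pos (h1.2 h2)]
    unfold sg
    rw [if_pos h2]
  · rw [if_neg (fun h => h2 (h1.1 h))]
    unfold sg
    rw [if_neg h2]

theorem P_pres {g : Co0} (hg : g ∈ P) : PresCross g := by
  rw [← Cfsg.Agent.Lib.Sporadic.LeechAct.mem_N_iff_pres, Cfsg.Agent.Lib.Sporadic.LeechAct.mem_N_iff_v8]
  have h : g • Cfsg.Agent.Lib.Sporadic.LeechAct.v8 = Cfsg.Agent.Lib.Sporadic.LeechAct.v8 :=
    hg none (by decide +kernel)
  rw [h]

theorem O_mem {i : ℕ} (hi : i ∈ [23, 0, 1, 2, 3, 5, 14, 17]) : pt i ∈ ofMask octad0 := by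
  obtain ⟨h1, h2⟩ := O_pts i hi
  rw [mem_ofMask, idx_pt h1, h2]

theorem exists_form {g : Co0} (hg : g ∈ P) : ∃ T ∈ levelTbl6, ∃ m ∈ A32, Form g T m := by
  obtain ⟨⟨σ, c⟩, h⟩ := monoEquiv.surjective ⟨g, P_pres hg⟩
  have h0 : monoElt σ c = g := congrArg Subtype.val h
  subst h0
  have hfix : ∀ p ∈ ofMask octad0, σ.1 p = p ∧ σ.1 p ∉ c.1 := by
    intro p hp
    have h1 := hg p hp
    rw [mono_u8] at h1
    have h2 : (1 : ℤ) • u8 p = u8 p := one_smul _ _
    rw [← h2] at h1
    have h3 := smul_u8_inj (by split_ifs <;> simp) h1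
    refine ⟨h3.1, fun hc => ?_⟩
    rw [if_pos hc] at h3
    omega
  -- the table
  have hσ : σ.1 ∈ fixG [5, 3, 2, 1, 0, 23] := by
    refine mem_fixG.2 ⟨σ.2, fun f hf => (hfix _ (O_mem ?_)).1⟩
    revert f; decide
  obtain ⟨T, hT, hTe⟩ := Cfsg.Agent.Lib.Sporadic.M24Act.fixG6_elements hσ
  -- the mask
  have hc := c.2
  rw [mem_supports_iff] at hc
  have hm : toMask c.1 ∈ A32 := by
    apply mem_A32_of_code _ hc
    intro i hi
    have hp := (hfix _ (O_mem hi)).2
    rw [(hfix _ (O_mem hi)).1] at hp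
    have h3 := O_pts i hi
    by_contra h4
    apply hp
    have h5 : c.1 = ofMask (toMask c.1) := (ofMask_toMask _).symm
    rw [h5, mem_ofMask, idx_pt h3.1]
    simpa using h4
  refine ⟨T, hT, toMask c.1, hm, ?_⟩
  have hgood := Cfsg.Agent.Lib.Sporadic.M24Act.goodT_of_levelOK level6_ok hT
  have h6 := form_mono (T := T) hgood (fun i hi => (tbl_lt T hT i (lt_of_mem_range hi)).1)
    (m := toMask c.1) (by rw [ofMask_toMask]; exact c.2)
  have e1 : (⟨gPerm T hgood, gPerm_mem hgood⟩ : M24) = σ := Subtype.ext hTe.symm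
  have e2 : (⟨ofMask (toMask c.1), by rw [ofMask_toMask]; exact c.2⟩ :
      supports (golayCode : Set (GolayPt → ZMod 2))) = c := Subtype.ext (ofMask_toMask _)
  rw [e1, e2] at h6
  exact h6

theorem P_of_form {g : Co0} {T : List ℕ} {m : ℕ} (hT : T ∈ levelTbl6) (hm : m ∈ A32) (h : Form g T m) :
    g ∈ P := by
  intro p hp
  obtain ⟨f, hf, rfl⟩ := List.mem_map.1 (Cfsg.Agent.Lib.Sporadic.M24Act.octad0_pts p hp)
  have hf' : f ∈ [23, 0, 1, 2, 3, 5, 14, 17] := by
    revert f; simp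
  rw [h f (O_pts f hf').1, tbl_O T hT f hf']
  unfold sg
  rw [if_neg (by rw [(A32_code m hm).2.2 f hf']; simp), one_smul]

theorem exists_of_form {T : List ℕ} (hT : T ∈ levelTbl6) {m : ℕ} (hm : m ∈ A32) :
    ∃ g ∈ P, Form g T m := by
  have hf := form_mono (T := T) (Cfsg.Agent.Lib.Sporadic.M24Act.goodT_of_levelOK level6_ok hT)
    (fun i hi => (tbl_lt T hT i (lt_of_mem_range hi)).1) (m := m)
    ((ofMask_mem_supports_iff (A32_code m hm).2.1).2 (A32_code m hm).1)
  exact ⟨_, P_of_form hT hm hf, hf⟩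

theorem form_sign {m : ℕ} (hm : ofMask m ∈ supports (golayCode : Set (GolayPt → ZMod 2))) :
    Form (signCo0 (ofMask m) hm) id24 m := by
  intro i hi
  rw [id24_getD hi]
  apply Subtype.ext
  funext q
  show signChange (ofMask m) (Pi.single (pt i) 8) q = _
  rw [coe_smul_u8]
  unfold signChange
  by_cases hq : q = pt i
  · subst hq
    have h1 : pt i ∈ ofMask m ↔ m.testBit i = true := by rw [mem_ofMask, idx_pt hi]
    unfold sg
    by_cases h2 : m.testBit i = true
    · rw [if_pos (h1.2 h2), if_pos h2]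
      simp
    · rw [if_neg (fun h => h2 (h1.1 h)), if_neg h2]
      simp
  · simp [Pi.single_eq_of_ne hq, hq]

theorem form_tO : Form tO id24 ocM := form_sign oc_supp

theorem form_one : Form 1 id24 0 := by
  intro i hi
  rw [id24_getD hi, sg_zero, one_smul, one_smul]

theorem tO_mem_P : tO ∈ P := P_of_form id24_mem ocM_mem_A32 form_tO

theorem ext_vals {g h : Co0} (H : ∀ i, i < 24 → g • u8 (pt i) = h • u8 (pt i)) : g = h := by
  apply co0_ext_u8
  intro p
  rw [← pt_idx p]
  exact H _ (idx_lt p)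

theorem sg_mul {m m' n a b c : ℕ} (h : (m.testBit a != m'.testBit b) = n.testBit c) :
    sg m a * sg m' b = sg n c := by
  unfold sg
  cases h1 : m.testBit a <;> cases h2 : m'.testBit b <;> cases h3 : n.testBit c <;>
    simp_all

theorem sq_cases {x : Co0} (hx : x ∈ P) : x * x = 1 ∨ x * x = tO := by
  obtain ⟨T, hT, m, hm, hf⟩ := exists_form hx
  rcases check_sq T hT m hm with h | h
  · left
    apply ext_vals
    intro i hi
    have hi' := lt_of_mem_range hi
    obtain ⟨h1, h2⟩ := tbl_lt T hT i hi'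
    rw [mul_form hf hf hi h1, h2, sg_eq_iff.2 (h i hi'), sg_mul_self, one_smul, one_smul]
  · right
    apply ext_vals
    intro i hi
    have hi' := lt_of_mem_range hi
    obtain ⟨h1, h2⟩ := tbl_lt T hT i hi'
    rw [mul_form hf hf hi h1, h2, form_tO i hi, id24_getD hi]
    congr 1
    apply sg_mul
    exact h i hi'

theorem comm_tO {y : Co0} (hy : y ∈ P) : tO * y = y * tO := by
  obtain ⟨T, hT, m, hm, hf⟩ := exists_form hy
  apply ext_vals
  intro i hi
  have hi' := lt_of_mem_range hi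
  obtain ⟨h1, h2⟩ := tbl_lt T hT i hi'
  rw [mul_form form_tO hf hi h1, mul_form hf form_tO hi (by rw [id24_getD hi]; exact hi),
    id24_getD h1, id24_getD hi, sg_eq_iff.2 (check_oc T hT i hi'), mul_comm]

theorem central_form {x : Co0} (hx : x ∈ P) (h : ∀ y ∈ P, x * y = y * x) : x = 1 ∨ x = tO := by
  obtain ⟨T, hT, m, hm, hf⟩ := exists_form hx
  have hid : T = id24 := by
    apply check_id T hT
    intro e he i hi
    have hi' := List.mem_range.1 hi
    obtain ⟨h1, h2⟩ := tbl_lt T hT i hi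
    have hs : ofMask e ∈ supports (golayCode : Set (GolayPt → ZMod 2)) :=
      (ofMask_mem_supports_iff (A32_code e he).2.1).2 (A32_code e he).1
    have hfe := form_sign hs
    have h3 : (x * signCo0 (ofMask e) hs) • u8 (pt i) = (signCo0 (ofMask e) hs * x) • u8 (pt i) := by
      rw [h _ (P_of_form id24_mem he hfe)]
    rw [mul_form hf hfe hi' (by rw [id24_getD hi']; exact hi'),
      mul_form hfe hf hi' h1, id24_getD hi', id24_getD h1] at h3
    have h4 := (smul_u8_inj (a := sg e i * sg m (T.getD i 0))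
      (by rcases sg_cases e i with h5 | h5 <;> rcases sg_cases m (T.getD i 0) with h6 | h6 <;>
        rw [h5, h6] <;> norm_num) h3).2
    rw [mul_comm] at h4
    have h5 : sg e i = sg e (T.getD i 0) := by
      rcases sg_cases m (T.getD i 0) with h6 | h6 <;> rw [h6] at h4 <;> linarith
    exact (sg_eq_iff.1 h5).symm
  subst hid
  have hmask : m = 0 ∨ m = ocM := by
    apply check_mask m hm
    intro T' hT' i hi
    have hi' := List.mem_range.1 hi
    obtain ⟨h1, h2⟩ := tbl_lt T' hT' i hi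
    obtain ⟨y, hy, hfy⟩ := exists_of_form hT' zero_mem_A32
    have h3 : (x * y) • u8 (pt i) = (y * x) • u8 (pt i) := by rw [h _ hy]
    rw [mul_form hf hfy hi' h1, mul_form hfy hf hi' (by rw [id24_getD hi']; exact hi'),
      id24_getD h1, id24_getD hi', sg_zero, one_mul, mul_one] at h3
    have h4 := (smul_u8_inj (sg_cases _ _) h3).2
    exact sg_eq_iff.1 h4
  rcases hmask with rfl | rfl
  · left
    exact ext_form hf form_one fun i _ => ⟨rfl, rfl⟩
  · right
    exact ext_form hf form_tO fun i _ => ⟨rfl, rfl⟩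

theorem tO_ne_one : tO ≠ 1 := by
  intro h
  have h1 := form_tO 4 (by norm_num)
  rw [h, one_smul, id24_getD (by norm_num)] at h1
  have h2 : (1 : ℤ) • u8 (pt 4) = sg ocM 4 • u8 (pt 4) := by rw [one_smul]; exact h1
  have h3 := (smul_u8_inj (Or.inl rfl) h2).2
  revert h3
  decide

/-- The criterion. -/
theorem exCrit_P : ExCrit P := by
  refine ⟨⟨⟨tO, tO_mem_P⟩, fun h => tO_ne_one (congrArg Subtype.val h), ?_, ?_⟩, ?_⟩
  · rintro ⟨x, hx⟩
    constructor
    · intro h
      rcases central_form hx (fun y hy => congrArg Subtype.val (h ⟨y, hy⟩)) with h1 | h1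
      · left; exact Subtype.ext h1
      · right; exact Subtype.ext h1
    · rintro (h | h) ⟨y, hy⟩
      · rw [h, one_mul, mul_one]
      · have h1 : x = tO := congrArg Subtype.val h
        subst h1
        exact Subtype.ext (comm_tO hy)
  · rintro ⟨x, hx⟩
    rcases sq_cases hx with h | h
    · left; exact Subtype.ext h
    · right; exact Subtype.ext h
  · by_contra hc
    push Not at hc
    obtain ⟨y, hy, hfy⟩ := exists_of_form tbl1_mem zero_mem_A32
    have hc' : ∀ z ∈ P, y * z = z * y := fun z hz => congrArg Subtype.val (hc ⟨y, hy⟩ ⟨z, hz⟩)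
    have h1 := hfy 4 (by norm_num)
    rcases central_form hy hc' with rfl | rfl
    · rw [one_smul] at h1
      have h2 : (1 : ℤ) • u8 (pt 4) = _ := (one_smul _ _).trans h1
      have h3 := (smul_u8_inj (Or.inl rfl) h2).1
      have h4 := congrArg idx h3
      rw [idx_pt (by norm_num), idx_pt (by decide)] at h4
      revert h4
      decide
    · rw [form_tO 4 (by norm_num), id24_getD (by norm_num)] at h1
      have h3 := (smul_u8_inj (sg_cases _ _) h1).1
      have h4 := congrArg idx h3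
      rw [idx_pt (by norm_num), idx_pt (by decide)] at h4
      revert h4
      decide

/-- Uniqueness of the normal form. -/
theorem form_uniq {g : Co0} {T T' : List ℕ} {m m' : ℕ} (hT : T ∈ levelTbl6) (hT' : T' ∈ levelTbl6)
    (hm : m ∈ A32) (hm' : m' ∈ A32) (h : Form g T m) (h' : Form g T' m') : T = T' ∧ m = m' := by
  have key : ∀ i, i < 24 → T.getD i 0 = T'.getD i 0 ∧ sg m (T.getD i 0) = sg m' (T'.getD i 0) := by
    intro i hi
    have h1 := (h i hi).symm.trans (h' i hi)
    have h2 := smul_u8_inj (sg_cases _ _) h1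
    refine ⟨?_, h2.2⟩
    have h3 := congrArg idx h2.1
    rwa [idx_pt (tbl_lt T hT i (lt_of_mem_range hi)).1, idx_pt (tbl_lt T' hT' i (lt_of_mem_range hi)).1] at h3
  have hTT : T = T' := tbl_uniq T hT T' hT' fun i hi => (key i (List.mem_range.1 hi)).1
  subst hTT
  refine ⟨rfl, mask_uniq T hT m hm m' hm' fun i hi => ?_⟩
  exact sg_eq_iff.1 (key i (List.mem_range.1 hi)).2

/-- The index set of the normal forms. -/
def Sset : Finset (List ℕ × ℕ) := levelTbl6.toFinset ×ˢ A32.toFinset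

theorem mem_Sset {s : List ℕ × ℕ} : s ∈ Sset ↔ s.1 ∈ levelTbl6 ∧ s.2 ∈ A32 := by
  unfold Sset
  rw [Finset.mem_product, List.mem_toFinset, List.mem_toFinset]

theorem card_Sset : Sset.card = 2 ^ 9 := by
  unfold Sset
  rw [Finset.card_product, List.toFinset_card_of_nodup tbl_data.2, List.toFinset_card_of_nodup A32_data.2,
    tbl_data.1, A32_data.1]
  norm_num

theorem card_of_rel {α G : Type*} (S : Finset α) (R : G → α → Prop) (h1 : ∀ s ∈ S, ∃ g, R g s)
    (h2 : ∀ g, ∃ s ∈ S, R g s) (h3 : ∀ g s s', s ∈ S → s' ∈ S → R g s → R g s' → s = s')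
    (h4 : ∀ g g' s, R g s → R g' s → g = g') : Nat.card G = S.card := by
  have hex : ∀ s : S, ∃ g : G, R g s.1 := fun s => h1 s.1 s.2
  choose Φ hΦ using hex
  have hbij : Function.Bijective Φ := by
    constructor
    · intro s s' hss
      have hs := hΦ s
      rw [hss] at hs
      exact Subtype.ext (h3 _ _ _ s.2 s'.2 hs (hΦ s'))
    · intro g
      obtain ⟨s, hs, hR⟩ := h2 g
      exact ⟨⟨s, hs⟩, h4 _ _ _ (hΦ ⟨s, hs⟩) hR⟩
  rw [← Nat.card_congr (Equiv.ofBijective Φ hbij), Nat.card_eq_fintype_card, Fintype.card_coe]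

/-- The order. -/
theorem card_P : Nat.card P = 2 ^ 9 := by
  rw [card_of_rel Sset (fun (g : P) (s : List ℕ × ℕ) => Form g.1 s.1 s.2), card_Sset]
  · intro s hs
    obtain ⟨h1, h2⟩ := mem_Sset.1 hs
    obtain ⟨g, hg, hf⟩ := exists_of_form h1 h2
    exact ⟨⟨g, hg⟩, hf⟩
  · rintro ⟨g, hg⟩
    obtain ⟨T, hT, m, hm, hf⟩ := exists_form hg
    exact ⟨(T, m), mem_Sset.2 ⟨hT, hm⟩, hf⟩
  · intro g s s' hs hs' h1 h2
    obtain ⟨h3, h4⟩ := mem_Sset.1 hs
    obtain ⟨h5, h6⟩ := mem_Sset.1 hs'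
    obtain ⟨h7, h8⟩ := form_uniq h3 h5 h4 h6 h1 h2
    exact Prod.ext h7 h8
  · intro g g' s h1 h2
    exact Subtype.ext (ext_form h1 h2 fun i _ => ⟨rfl, rfl⟩)

/-! ### Relation with `CC` and `psi` -/

/-- Elements of `P` fix the vectors supported on the octad. -/
theorem P_fix {g : Co0} (hg : g ∈ P) {x : leechLattice} (hx : SupO (x : V)) : g • x = x := by
  apply Subtype.ext
  funext j
  have h1 := eight_smul_apply g x j
  have h2 := eight_smul_apply 1 x j
  rw [one_smul] at h2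
  have h3 : 8 * ((g • x : leechLattice) : V) j = 8 * (x : V) j := by
    rw [h1, h2]
    apply Finset.sum_congr rfl
    intro i _
    by_cases hi : i ∈ ofMask octad0
    · rw [hg i hi, one_smul]
    · rw [hx i hi, zero_mul, zero_mul]
  omega

theorem P_le_CC : P ≤ CC := by
  intro g hg
  rw [mem_CC]
  refine ⟨P_fix hg ?_, (comm_tO hg).symm⟩
  have : ((Spor.leechU : leechLattice) : V) = vec8 uL := vecU_eq
  rw [this]
  exact supO_vec8 _

theorem Mat_P {g : Co0} (hg : g ∈ P) : Mat g = 1 := by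
  rw [← Mat_one]
  ext i j
  simp only [Mat, one_smul]
  rw [P_fix hg (rs_bv j).1]

end Cfsg.Agent.Lib.Sporadic.Co2Cent.PGrp
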