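import Mathlib
import Cfsg.Agent.Lib.Sporadic.Co2Cent.PGrp

/-!
# The kernel of `psi` is the group `P`.
-/

set_option autoImplicit false

namespace Cfsg.Agent.Lib.Sporadic.Co2Cent.Ker

open Cfsg Cfsg.Agent.Lib.Sporadic.GolayCore Cfsg.Agent.Lib.Sporadic.LeechBasic
  Cfsg.Agent.Lib.Sporadic.LeechNorm Cfsg.Agent.Lib.Sporadic.LeechFacts
  Cfsg.Agent.Lib.Sporadic.LeechAut Cfsg.Agent.Lib.Sporadic.LeechMat
  Cfsg.Agent.Lib.Sporadic.LeechKey Cfsg.Agent.Lib.Sporadic.M24Chain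
  Cfsg.Agent.Lib.Sporadic.LeechMonomial
  Cfsg.Agent.Lib.Sporadic.LeechA0 Cfsg.Agent.Lib.Sporadic.Co2Cent.Roots
  Cfsg.Agent.Lib.Sporadic.Co2Cent.Hom Cfsg.Agent.Lib.Sporadic.Co2Cent.PGrp

theorem getD_neg (a : List ℤ) (i : ℕ) : (a.map Neg.neg).getD i 0 = - a.getD i 0 := by
  induction a generalizing i with
  | nil => simp
  | cons x xs ih =>
    cases i with
    | zero => simp
    | succ n => simpa using ih n

theorem to24_neg (a : List ℤ) : to24 (a.map Neg.neg) = (to24 a).map Neg.neg := by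
  unfold to24
  simp only [getD_neg, List.map_cons, List.map_nil, neg_zero]

theorem vec8_neg (a : List ℤ) : vec8 (a.map Neg.neg) = - vec8 a := by
  funext p
  unfold vec8 vecOf
  rw [to24_neg, getD_neg]
  rfl

/-- A root with the same coordinates is the root up to sign. -/
theorem eq_or_neg {x y : leechLattice} (hx : Rs x) (hy : Rs y) (h : cv x = cv y) :
    x = y ∨ x = - y := by
  obtain ⟨a, ha, rfl⟩ := rs_form hx
  obtain ⟨b, hb, rfl⟩ := rs_form hy
  have key : ∀ k : I6, (d16 a (bL (ix k)) - d16 b (bL (ix k))) % 2 = 0 := by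
    intro k
    have h1 := congrFun h k.swap
    simp only [cv, Sum.swap_swap, bv, bet_rv] at h1
    rw [ZMod.intCast_eq_intCast_iff] at h1
    have h2 : ((d16 a (bL (ix k)) : ℤ)) % ((2 : ℕ) : ℤ) = (d16 b (bL (ix k))) % ((2 : ℕ) : ℤ) := h1
    push_cast at h2
    omega
  have := class_check a ha b hb ⟨key (.inl 0), key (.inl 1), key (.inl 2), key (.inr 0), key (.inr 1),
    key (.inr 2)⟩
  rcases this with rfl | h3
  · left; rfl
  · right
    apply Subtype.ext
    show vec8 a = - vec8 b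
    rw [h3, vec8_neg]

theorem dotInt_zsmul (s s' : ℤ) (x y : V) : dotInt (s • x) (s' • y) = s * s' * dotInt x y := by
  unfold dotInt
  rw [Finset.mul_sum]
  apply Finset.sum_congr rfl
  intro i _
  simp only [Pi.smul_apply, smul_eq_mul]
  ring

/-- Sign transfer. -/
theorem sign_transfer {g : Co0} {x y : leechLattice} {s s' : ℤ} (hs : s = 1 ∨ s = -1)
    (hs' : s' = 1 ∨ s' = -1) (hx : g • x = s • x) (hy : g • y = s' • y)
    (h : dotInt (x : V) (y : V) ≠ 0) : s = s' := by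
  have h1 := co0_dotInt g x y
  rw [hx, hy] at h1
  have h2 : dotInt (((s • x : leechLattice)) : V) ((s' • y : leechLattice) : V) = s * s' * dotInt (x : V) (y : V) :=
    dotInt_zsmul s s' _ _
  rw [h2] at h1
  have h3 : s * s' = 1 := by
    have h4 : (s * s' - 1) * dotInt (x : V) (y : V) = 0 := by linarith
    rcases mul_eq_zero.1 h4 with h5 | h5
    · linarith
    · exact absurd h5 h
  rcases hs with rfl | rfl <;> rcases hs' with rfl | rfl <;> simp_all

section ker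

variable {g : Co0} (hg : g ∈ CC) (hM : Mat g = 1)

include hg hM

theorem cv_fix {x : leechLattice} (hx : Rs x) : cv (g • x) = cv x := by
  rw [← Mat_mulVec hg hx, hM, Matrix.one_mulVec]

theorem sign_or {x : leechLattice} (hx : Rs x) : ∃ s : ℤ, (s = 1 ∨ s = -1) ∧ g • x = s • x := by
  rcases eq_or_neg (rs_smul hg hx) hx (cv_fix hg hM hx) with h | h
  · exact ⟨1, Or.inl rfl, by rw [one_smul]; exact h⟩
  · exact ⟨-1, Or.inr rfl, by rw [h, neg_smul, one_smul]⟩

/-- The sign is uniform. -/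
theorem uniform : ∃ s : ℤ, (s = 1 ∨ s = -1) ∧ ∀ x, Rs x → g • x = s • x := by
  obtain ⟨s, hs, h0⟩ := sign_or hg hM (rs_bv (.inl 0))
  refine ⟨s, hs, fun x hx => ?_⟩
  obtain ⟨a, ha, rfl⟩ := rs_form hx
  obtain ⟨s1, hs1, h1⟩ := sign_or hg hM hx
  have key : ∀ {b c : List ℤ} (hb : b ∈ rt8) (hc : c ∈ rt8) {s2 s3 : ℤ}, (s2 = 1 ∨ s2 = -1) → (s3 = 1 ∨ s3 = -1) →
      g • rv b hb = s2 • rv b hb → g • rv c hc = s3 • rv c hc → dot8 b c ≠ 0 → s2 = s3 := by
    intro b c hb hc s2 s3 h2 h3 h4 h5 h6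
    refine sign_transfer h2 h3 h4 h5 ?_
    show dotInt (vec8 b) (vec8 c) ≠ 0
    rw [dotInt_vec8]
    exact h6
  have h0' : g • rv (bL 0) (bs8_mem 0 (by norm_num)) = s • rv (bL 0) (bs8_mem 0 (by norm_num)) := h0
  rcases conn_check a ha with h2 | ⟨c, hc, h2, h3⟩
  · rw [key ha (bs8_mem 0 (by norm_num)) hs1 hs h1 h0' h2] at h1
    exact h1
  · obtain ⟨s2, hs2, h4⟩ := sign_or hg hM (rs_rv hc)
    have h5 := key hc (bs8_mem 0 (by norm_num)) hs2 hs h4 h0' h3
    have h6 := key ha hc hs1 hs2 h1 h4 h2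
    rw [h6, h5] at h1
    exact h1

end ker

/-! ### The frame in terms of the roots -/

theorem mem_rt8 {a : List ℤ} (h : a ∈ rt8) : a ∈ rt8 := h

/-- The root `(4, -4, 0⁶)`. -/
def ra : List ℤ := [4, -4, 0, 0, 0, 0, 0, 0]

theorem ra_mem : ra ∈ rt8 := by decide +kernel

theorem leechU_coe : ((Spor.leechU : leechLattice) : V) = vec8 uL := vecU_eq

theorem u8_23 : u8 (pt 23) = Spor.leechU + rv ra ra_mem := by
  apply Subtype.ext
  show (Pi.single (pt 23) 8 : V) = ((Spor.leechU : leechLattice) : V) + vec8 ra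
  rw [leechU_coe]
  funext q
  revert q
  decide +kernel

theorem u8_0 : u8 (pt 0) = Spor.leechU - rv ra ra_mem := by
  apply Subtype.ext
  show (Pi.single (pt 0) 8 : V) = ((Spor.leechU : leechLattice) : V) - vec8 ra
  rw [leechU_coe]
  funext q
  revert q
  decide +kernel

/-- The six remaining points. -/
theorem u8_six : ∀ k ∈ [1, 2, 3, 5, 14, 17], ∃ a, ∃ ha : a ∈ rt8, ∃ b, ∃ hb : b ∈ rt8,
    u8 (pt k) = rv a ha + rv b hb := by
  have key : ∀ (k : ℕ) (a b : List ℤ) (ha : a ∈ rt8) (hb : b ∈ rt8),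
      (∀ q, (Pi.single (pt k) 8 : V) q = vec8 a q + vec8 b q) →
      ∃ a, ∃ ha : a ∈ rt8, ∃ b, ∃ hb : b ∈ rt8, u8 (pt k) = rv a ha + rv b hb := by
    intro k a b ha hb h
    exact ⟨a, ha, b, hb, Subtype.ext (funext h)⟩
  intro k hk
  simp only [List.mem_cons, List.not_mem_nil, or_false] at hk
  rcases hk with rfl | rfl | rfl | rfl | rfl | rfl
  · exact key 1 [0, 0, 4, 4, 0, 0, 0, 0] [0, 0, 4, -4, 0, 0, 0, 0] (by decide +kernel) (by decide +kernel) (by decide +kernel)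
  · exact key 2 [0, 0, 4, 4, 0, 0, 0, 0] [0, 0, -4, 4, 0, 0, 0, 0] (by decide +kernel) (by decide +kernel) (by decide +kernel)
  · exact key 3 [0, 0, 0, 0, 4, 4, 0, 0] [0, 0, 0, 0, 4, -4, 0, 0] (by decide +kernel) (by decide +kernel) (by decide +kernel)
  · exact key 5 [0, 0, 0, 0, 4, 4, 0, 0] [0, 0, 0, 0, -4, 4, 0, 0] (by decide +kernel) (by decide +kernel) (by decide +kernel)
  · exact key 14 [0, 0, 0, 0, 0, 0, 4, 4] [0, 0, 0, 0, 0, 0, 4, -4] (by decide +kernel) (by decide +kernel) (by decide +kernel)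
  · exact key 17 [0, 0, 0, 0, 0, 0, 4, 4] [0, 0, 0, 0, 0, 0, -4, 4] (by decide +kernel) (by decide +kernel) (by decide +kernel)

/-- The positive case. -/
theorem P_of_plus {g : Co0} (hg : g ∈ CC) (h : ∀ x, Rs x → g • x = x) : g ∈ P := by
  have hu := (mem_CC.1 hg).1
  have h0 := h _ (rs_rv ra_mem)
  intro p hp
  obtain ⟨f, hf, rfl⟩ := List.mem_map.1 (Cfsg.Agent.Lib.Sporadic.M24Act.octad0_pts p hp)
  have hf' : f = 23 ∨ f = 0 ∨ f ∈ [1, 2, 3, 5, 14, 17] := by
    revert f; simp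
  rcases hf' with rfl | rfl | hf'
  · rw [u8_23, co0_map_add, hu, h0]
  · rw [u8_0, sub_eq_add_neg, co0_map_add, co0_map_neg, hu, h0]
  · obtain ⟨a, ha, b, hb, e⟩ := u8_six f hf'
    rw [e, co0_map_add, h _ (rs_rv ha), h _ (rs_rv hb)]

/-- A table of `M24` moving `1, 2, 3, 5, 14, 17` to the base. -/
def tauT : List ℕ := [17, 23, 0, 1, 22, 2, 9, 7, 13, 6, 10, 4, 11, 16, 3, 19, 18, 5, 8, 15, 20, 21, 12, 14]

theorem tauT_ok : goodT tauT = true := by decide +kernel

/-- No element of `M24` swaps two points of the octad and fixes the other six. -/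
theorem no_swap {σ : Equiv.Perm GolayPt} (hσ : σ ∈ M24) (h1 : σ (pt 1) = pt 1) (h2 : σ (pt 2) = pt 2)
    (h3 : σ (pt 3) = pt 3) (h5 : σ (pt 5) = pt 5) (h14 : σ (pt 14) = pt 14) (h17 : σ (pt 17) = pt 17)
    (h : σ (pt 23) = pt 0) : False := by
  let τ := gPerm tauT tauT_ok
  have hτ : τ ∈ M24 := gPerm_mem tauT_ok
  have hval : ∀ b, b < 24 → τ (pt b) = pt (tauT.getD b 0) := fun b hb => gPerm_pt tauT_ok hb
  have hinv : ∀ b c, b < 24 → tauT.getD b 0 = c → τ⁻¹ (pt c) = pt b := by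
    intro b c hb hc
    rw [Equiv.Perm.inv_eq_iff_eq, hval b hb, hc]
  have key : ∀ b c, b < 24 → tauT.getD b 0 = c → σ (pt b) = pt b → (τ * σ * τ⁻¹) (pt c) = pt c := by
    intro b c hb hc hf
    rw [Equiv.Perm.mul_apply, Equiv.Perm.mul_apply, hinv b c hb hc, hf, hval b hb, hc]
  have hfix : τ * σ * τ⁻¹ ∈ fixG [5, 3, 2, 1, 0, 23] := by
    refine mem_fixG.2 ⟨M24.mul_mem (M24.mul_mem hτ hσ) (M24.inv_mem hτ), fun f hf => ?_⟩
    simp only [List.mem_cons, List.not_mem_nil, or_false] at hf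
    rcases hf with rfl | rfl | rfl | rfl | rfl | rfl
    · exact key 17 5 (by norm_num) (by decide) h17
    · exact key 14 3 (by norm_num) (by decide) h14
    · exact key 5 2 (by norm_num) (by decide) h5
    · exact key 3 1 (by norm_num) (by decide) h3
    · exact key 2 0 (by norm_num) (by decide) h2
    · exact key 1 23 (by norm_num) (by decide) h1
  have h4 := (Cfsg.Agent.Lib.Sporadic.M24Act.fixG6_props hfix).1 (τ (pt 23)) (by
    rw [hval 23 (by norm_num)]
    exact O_mem (by decide))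
  have h8 : τ⁻¹ (τ (pt 23)) = pt 23 := by simp
  rw [Equiv.Perm.mul_apply, Equiv.Perm.mul_apply, h8, h] at h4
  have h6 := τ.injective h4
  have h7 := congrArg idx h6
  rw [idx_pt (by norm_num), idx_pt (by norm_num)] at h7
  omega

/-- The negative case does not occur. -/
theorem not_minus {g : Co0} (hg : g ∈ CC) (h : ∀ x, Rs x → g • x = - x) : False := by
  have hu := (mem_CC.1 hg).1
  have h0 := h _ (rs_rv ra_mem)
  have h23 : g • u8 (pt 23) = u8 (pt 0) := by
    rw [u8_23, co0_map_add, hu, h0, u8_0, sub_eq_add_neg]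
  have hv : Cfsg.Agent.Lib.Sporadic.LeechAct.v8 = u8 (pt 23) := rfl
  have hpres : PresCross g := by
    rw [← Cfsg.Agent.Lib.Sporadic.LeechAct.mem_N_iff_pres, Cfsg.Agent.Lib.Sporadic.LeechAct.mem_N_iff_v8, hv,
      h23]
    exact Cfsg.Agent.Lib.Sporadic.LeechAct.cl_crossL
      ((Cfsg.Agent.Lib.Sporadic.LeechAct.mem_stdCross_iff _).1 (u8_mem_stdCross _))
  obtain ⟨⟨σ, c⟩, hc⟩ := monoEquiv.surjective ⟨g, hpres⟩
  have h00 : monoElt σ c = g := congrArg Subtype.val hc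
  subst h00
  have hsig : ∀ p q, monoElt σ c • u8 p = (1 : ℤ) • u8 q ∨ monoElt σ c • u8 p = (-1 : ℤ) • u8 q → σ.1 p = q := by
    intro p q hpq
    rw [mono_u8] at hpq
    rcases hpq with hpq | hpq
    · exact (smul_u8_inj (by split_ifs <;> simp) hpq).1
    · exact (smul_u8_inj (by split_ifs <;> simp) hpq).1
  have hs : ∀ k ∈ [1, 2, 3, 5, 14, 17], σ.1 (pt k) = pt k := by
    intro k hk
    obtain ⟨a, ha, b, hb, e⟩ := u8_six k hk
    apply hsig
    right
    rw [e, co0_map_add, h _ (rs_rv ha), h _ (rs_rv hb), neg_smul, one_smul, neg_add_rev, add_comm]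
  exact no_swap σ.2 (hs 1 (by simp)) (hs 2 (by simp)) (hs 3 (by simp)) (hs 5 (by simp)) (hs 14 (by simp))
    (hs 17 (by simp)) (hsig _ _ (Or.inl (by rw [h23, one_smul])))

/-- The main theorem of this file. -/
theorem mem_P_of_Mat {g : Co0} (hg : g ∈ CC) (hM : Mat g = 1) : g ∈ P := by
  obtain ⟨s, hs, h⟩ := uniform hg hM
  rcases hs with rfl | rfl
  · exact P_of_plus hg fun x hx => by rw [h x hx, one_smul]
  · exact (not_minus hg fun x hx => by rw [h x hx, neg_smul, one_smul]).elim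

theorem mem_ker_psi {g : CC} : g ∈ psi.ker ↔ g.1 ∈ P := by
  rw [MonoidHom.mem_ker]
  constructor
  · intro h
    apply mem_P_of_Mat g.2
    have := congrArg Subtype.val h
    exact this
  · intro h
    apply Subtype.ext
    exact Mat_P h

end Cfsg.Agent.Lib.Sporadic.Co2Cent.Ker
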