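import Mathlib
import Cfsg.Agent.Lib.Sporadic.Co2Cent.Ker
import Cfsg.Agent.Lib.Sporadic.LeechMin
import Cfsg.Agent.Lib.Classical.Symp.Basic

/-!
# `psi` is surjective

Three explicit elements of `CC`: a monomial element acting as a transvection, a permutation, and an
element built from Conway's `ξ`.  The two last ones move the centre of the transvection to all of the
non-zero vectors, and the transvections generate `Sp₆(2)`.
-/

set_option autoImplicit false

namespace Cfsg.Agent.Lib.Sporadic.Co2Cent.Surj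

open Cfsg Cfsg.Agent.Lib.Sporadic.GolayCore Cfsg.Agent.Lib.Sporadic.LeechBasic
  Cfsg.Agent.Lib.Sporadic.LeechNorm Cfsg.Agent.Lib.Sporadic.LeechFacts
  Cfsg.Agent.Lib.Sporadic.LeechAut Cfsg.Agent.Lib.Sporadic.LeechMat
  Cfsg.Agent.Lib.Sporadic.LeechKey Cfsg.Agent.Lib.Sporadic.M24Chain
  Cfsg.Agent.Lib.Sporadic.LeechMonomial
  Cfsg.Agent.Lib.Sporadic.LeechA0 Cfsg.Agent.Lib.Sporadic.Co2Cent.Roots
  Cfsg.Agent.Lib.Sporadic.Co2Cent.Hom Cfsg.Agent.Lib.Sporadic.Co2Cent.PGrp
  Cfsg.Agent.Lib.Sporadic.Co2Cent.Ker Cfsg.Agent.Lib.Sporadic.LeechMin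
open Cfsg.Agent.Lib.Compute.Schur2.SpTwo (dec enc dec_enc enc_lt V6)
open Matrix

theorem Acts.coe {g : Co0} {f : List ℤ → List ℤ} (h : Acts g f) (v : leechLattice) (l : List ℤ)
    (e : (v : V) = vecOf l) : ((g • v : leechLattice) : V) = vecOf (f l) := by
  obtain ⟨x, hx⟩ := v
  have e' : x = vecOf l := e
  subst e'
  exact h l hx

/-- The vector `8 e_i` as a list. -/
def e24 (i : ℕ) : List ℤ := rangeL fun k => if k = i then 8 else 0

theorem u8_coe (p : GolayPt) : (u8 p : V) = vecOf (e24 (idx p)) := by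
  funext q
  unfold e24
  rw [vecOf_rangeL, coe_u8]
  by_cases h : q = p
  · subst h; simp
  · rw [Pi.single_eq_of_ne h, if_neg (fun h' => h (idx_injective h'))]

theorem acts_tO : Acts tO (signL ocM) := acts_sign oc_supp

/-- A criterion for membership in `CC`. -/
theorem mem_CC_of_acts {g : Co0} {f : List ℤ → List ℤ} (h : Acts g f) (hu : f (to24 uL) = to24 uL)
    (hc : (List.range 24).all (fun i => f (signL ocM (e24 i)) == signL ocM (f (e24 i))) = true) : g ∈ CC := by
  rw [mem_CC]
  constructor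
  · apply Subtype.ext
    have h1 := Acts.coe h Spor.leechU (to24 uL) vecU_eq
    rw [hu] at h1
    exact h1.trans vecU_eq.symm
  · apply co0_ext_u8
    intro p
    apply Subtype.ext
    have h1 := Acts.coe (h.comp acts_tO) (u8 p) _ (u8_coe p)
    have h2 := Acts.coe (acts_tO.comp h) (u8 p) _ (u8_coe p)
    rw [h1, h2]
    have h3 := List.all_eq_true.1 hc _ (List.mem_range.2 (idx_lt p))
    rw [beq_iff_eq] at h3
    rw [h3]

/-- Inner product of list vectors. -/
def dotL (l l' : List ℤ) : ℤ := ((List.range 24).map fun i => l.getD i 0 * l'.getD i 0).sum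

/-- The swap on indices. -/
def swap6 (i : ℕ) : ℕ := if i < 3 then i + 3 else i - 3

theorem ix_swap : ∀ i : I6, ix i.swap = swap6 (ix i) := by decide

/-- A matrix from a table of bits. -/
def tabM (t : List (List ℕ)) : Matrix I6 I6 (ZMod 2) :=
  fun i j => (((t.getD (ix i) []).getD (ix j) 0 : ℕ) : ZMod 2)

/-- Checks a table of a matrix. -/
def tabCheck (f : List ℤ → List ℤ) (t : List (List ℕ)) : Bool :=
  (List.range 6).all fun i => (List.range 6).all fun j =>
    decide ((dotL (f (to24 (bL j))) (to24 (bL (swap6 i))) / 16) % 2 = (((t.getD i []).getD j 0 : ℕ) : ℤ))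

theorem Mat_eq_tab {g : Co0} {f : List ℤ → List ℤ} {t : List (List ℕ)} (h : Acts g f)
    (hc : tabCheck f t = true) : Mat g = tabM t := by
  ext i j
  have h1 : ((g • bv j : leechLattice) : V) = vecOf (f (to24 (bL (ix j)))) := Acts.coe h _ _ rfl
  have h2 : ((bv i.swap : leechLattice) : V) = vecOf (to24 (bL (swap6 (ix i)))) := by
    rw [← ix_swap]
    rfl
  simp only [Mat, bet, tabM]
  rw [h1, h2, dotInt_vecOf, cast_mod_two]
  have h3 := List.all_eq_true.1 (List.all_eq_true.1 hc _ (List.mem_range.2 (ix_lt i)))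
    _ (List.mem_range.2 (ix_lt j))
  rw [decide_eq_true_eq] at h3
  unfold dotL at h3
  rw [h3]
  push_cast
  rfl

/-! ### The three elements -/

def sgT : List ℕ := [23,2,1,3,18,5,20,15,16,7,6,22,4,12,14,21,11,17,13,10,19,9,8,0]
def sgI : List ℕ := [23,2,1,3,12,5,10,9,22,21,19,16,13,18,14,7,8,17,4,20,6,15,11,0]
theorem sgT_ok : goodT sgT = true := by decide +kernel
def cTm : ℕ := 3334270
theorem cTm_ok : ofMask cTm ∈ supports (golayCode : Set (GolayPt → ZMod 2)) :=
  (ofMask_mem_supports_iff (by decide)).2 (by decide +kernel)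

/-- The element acting as a transvection. -/
noncomputable def gT : Co0 := signCo0 (ofMask cTm) cTm_ok * permCo0 (gPerm sgT sgT_ok) (gPerm_mem sgT_ok)

theorem acts_gT : Acts gT (fun l => signL cTm (permL sgI l)) :=
  (acts_sign cTm_ok).comp (acts_perm sgT_ok (by decide +kernel))

theorem gT_mem : gT ∈ CC := mem_CC_of_acts acts_gT (by decide +kernel) (by decide +kernel)

def tabT : List (List ℕ) := [[1,0,0,0,0,0],[0,0,1,0,1,1],[0,1,0,0,1,1],[0,0,0,1,0,0],[0,1,1,0,0,1],[0,1,1,0,1,0]]

theorem Mat_gT : Mat gT = tabM tabT := Mat_eq_tab acts_gT (by decide +kernel)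

def gp1T : List ℕ := [23,2,17,3,10,5,8,6,4,16,9,18,7,21,1,11,12,14,20,22,19,15,13,0]
def gp1I : List ℕ := [23,14,1,3,8,5,7,12,6,10,4,15,16,22,17,21,9,2,11,20,18,13,19,0]
theorem gp1T_ok : goodT gp1T = true := by decide +kernel

/-- A permutation. -/
noncomputable def gP1 : Co0 := permCo0 (gPerm gp1T gp1T_ok) (gPerm_mem gp1T_ok)

theorem acts_gP1 : Acts gP1 (permL gp1I) := acts_perm gp1T_ok (by decide +kernel)

theorem gP1_mem : gP1 ∈ CC := mem_CC_of_acts acts_gP1 (by decide +kernel) (by decide +kernel)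

def tabP : List (List ℕ) := [[0,0,0,0,1,0],[1,0,1,0,0,1],[1,0,0,1,1,1],[1,1,0,0,0,0],[0,0,1,1,1,1],[0,0,1,0,0,1]]

theorem Mat_gP1 : Mat gP1 = tabM tabP := Mat_eq_tab acts_gP1 (by decide +kernel)

def tgT : List ℕ := [17,23,0,2,18,1,22,20,12,15,4,8,7,11,14,10,21,5,19,13,16,9,6,3]
def tgI : List ℕ := [2,5,3,23,10,17,22,12,11,21,15,13,8,19,14,9,20,0,4,18,7,16,6,1]
theorem tgT_ok : goodT tgT = true := by decide +kernel
def cFm : ℕ := 9347075
theorem cFm_ok : ofMask cFm ∈ supports (golayCode : Set (GolayPt → ZMod 2)) :=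
  (ofMask_mem_supports_iff (by decide)).2 (by decide +kernel)

/-- The element built from `ξ`. -/
noncomputable def gX : Co0 := signCo0 (ofMask cFm) cFm_ok * (permCo0 (gPerm tgT tgT_ok) (gPerm_mem tgT_ok) * matCo0 xiMat_ok)

theorem acts_gX : Acts gX (fun l => signL cFm (permL tgI (matL xiMat 2 l))) :=
  (acts_sign cFm_ok).comp ((acts_perm tgT_ok (by decide +kernel)).comp (acts_mat xiMat_ok))

theorem gX_mem : gX ∈ CC := mem_CC_of_acts acts_gX (by decide +kernel) (by decide +kernel)

def tabX : List (List ℕ) := [[1,0,0,0,0,1],[0,0,0,0,1,0],[1,0,1,1,1,0],[0,0,1,0,1,0],[0,1,0,0,1,1],[0,0,1,1,1,0]]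

theorem Mat_gX : Mat gX = tabM tabX := Mat_eq_tab acts_gX (by decide +kernel)

/-! ### The transvections -/

theorem tabT_eq : tabM tabT = sympTransvection 3 (dec 54) 1 := by
  have h : ∀ p : I6 × I6, tabM tabT p.1 p.2 = sympTransvection 3 (dec 54) (1 : ZMod 2) p.1 p.2 := by
    decide +kernel
  ext i j
  exact h (i, j)

/-- The chain of the orbit. -/
def chainL : List (ℕ × ℕ × Bool) := [(19,54,true), (25,54,false), (43,19,true), (31,25,true), (15,25,false), (32,43,true), (36,43,false), (35,31,true), (53,31,false), (29,15,true), (17,32,true), (61,36,true), (4,36,false), (48,35,false), (6,53,true), (51,29,true), (59,17,true), (27,17,false), (34,61,true), (11,61,false), (44,4,true), (50,4,false), (47,48,true), (60,6,true), (58,6,false), (37,51,false), (30,59,true), (49,59,false), (7,27,false), (1,34,true), (62,34,false), (18,11,false), (16,44,false), (63,50,true), (12,47,true), (22,47,false), (39,60,true), (5,60,false), (56,37,true), (10,37,false), (38,30,true), (42,49,true), (45,49,false),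 (57,7,true), (52,7,false), (14,1,false), (55,62,true), (13,62,false), (46,18,true), (21,16,false), (3,63,false), (8,12,true), (2,22,true), (40,39,true), (41,5,true), (28,10,false), (24,14,true), (23,55,false), (9,46,true), (20,8,false), (26,24,true), (33,23,false)]

/-- Checks a chain. -/
def chainOK : List ℕ → List (ℕ × ℕ × Bool) → Bool
  | _, [] => true
  | seen, (c, p, b) :: rest =>
    seen.contains p && (enc ((if b then tabM tabX else tabM tabP) *ᵥ dec p) == c) && chainOK (c :: seen) rest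

theorem chain_sound (S : (I6 → ZMod 2) → Prop) (hX : ∀ w, S w → S (tabM tabX *ᵥ w))
    (hP : ∀ w, S w → S (tabM tabP *ᵥ w)) (L : List (ℕ × ℕ × Bool)) (seen : List ℕ)
    (hc : chainOK seen L = true) (hs : ∀ s ∈ seen, S (dec s)) : ∀ e ∈ L, S (dec e.1) := by
  induction L generalizing seen with
  | nil => simp
  | cons e L ih =>
    obtain ⟨c, p, b⟩ := e
    simp only [chainOK, Bool.and_eq_true, List.contains_iff_mem, beq_iff_eq] at hc
    obtain ⟨⟨h1, h2⟩, h3⟩ := hc
    have hp := hs p h1
    have hcS : S (dec c) := by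
      rw [← h2, dec_enc]
      cases b
      · exact hP _ hp
      · exact hX _ hp
    intro e he
    rcases List.mem_cons.1 he with rfl | he
    · exact hcS
    · refine ih (c :: seen) h3 ?_ e he
      intro s hs'
      rcases List.mem_cons.1 hs' with rfl | hs'
      · exact hcS
      · exact hs s hs'

theorem chain_ok : chainOK [54] chainL = true := by decide +kernel

theorem chain_full : ∀ c ∈ List.range 64, c = 0 ∨ c = 54 ∨ c ∈ chainL.map Prod.fst := by decide +kernel

theorem dec_zero : dec 0 = 0 := by decide +kernel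

/-- All the non-zero vectors are reached. -/
theorem all_reached (S : (I6 → ZMod 2) → Prop) (hX : ∀ w, S w → S (tabM tabX *ᵥ w))
    (hP : ∀ w, S w → S (tabM tabP *ᵥ w)) (h0 : S (dec 54)) (w : I6 → ZMod 2) (hw : w ≠ 0) : S w := by
  have hsound := chain_sound S hX hP chainL _ chain_ok (by
    intro s hs
    rw [List.mem_singleton] at hs
    rw [hs]
    exact h0)
  have e : dec (enc w) = w := dec_enc w
  rcases chain_full (enc w) (List.mem_range.2 (enc_lt w)) with h | h | h
  · exfalso
    apply hw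
    rw [← e, h, dec_zero]
  · rw [← e, h]
    exact h0
  · obtain ⟨x, hx, hxe⟩ := List.mem_map.1 h
    have := hsound x hx
    rw [hxe, e] at this
    exact this

/-- Conjugates of transvections in the range. -/
theorem conj_step {g : Co0} (hg : g ∈ CC) {w : I6 → ZMod 2}
    (hw : ∃ h : CC, Mat h.1 = sympTransvection 3 w 1) :
    ∃ h : CC, Mat h.1 = sympTransvection 3 (Mat g *ᵥ w) 1 := by
  obtain ⟨h, hh⟩ := hw
  refine ⟨⟨g * h.1 * g⁻¹, CC.mul_mem (CC.mul_mem hg h.2) (CC.inv_mem hg)⟩, ?_⟩
  have hinv : (Mat g)⁻¹ = Mat g⁻¹ := by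
    apply Matrix.inv_eq_right_inv
    rw [← Mat_mul hg (CC.inv_mem hg), mul_inv_cancel, Mat_one]
  rw [← Cfsg.Agent.Lib.Classical.Symp.Basic.conj_sympTransvection (Mat_symp hg) w 1, hinv, ← hh]
  show Mat (g * h.1 * g⁻¹) = _
  rw [Mat_mul (CC.mul_mem hg h.2) (CC.inv_mem hg), Mat_mul hg h.2]

theorem exists_tv (w : I6 → ZMod 2) (hw : w ≠ 0) : ∃ h : CC, Mat h.1 = sympTransvection 3 w 1 := by
  apply all_reached (fun w => ∃ h : CC, Mat h.1 = sympTransvection 3 w 1) _ _ _ w hw
  · intro w hw
    rw [← Mat_gX]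
    exact conj_step gX_mem hw
  · intro w hw
    rw [← Mat_gP1]
    exact conj_step gP1_mem hw
  · exact ⟨⟨gT, gT_mem⟩, by rw [Mat_gT, tabT_eq]⟩

/-- `psi` is surjective. -/
theorem psi_surj : Function.Surjective psi := by
  rw [← MonoidHom.range_eq_top, eq_top_iff, ← Cfsg.Agent.Lib.Classical.Symp.Basic.closure_sympTvSet (m := 3) (F := ZMod 2),
    Subgroup.closure_le]
  rintro A ⟨w, c, hA⟩
  show A ∈ psi.range
  have hone : A = 1 ∨ ∃ h : CC, Mat h.1 = (A : Matrix I6 I6 (ZMod 2)) := by
    by_cases hw : w = 0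
    · left
      apply Subtype.ext
      rw [hA, hw]
      simp [sympTransvection]
    · have hc : c = 0 ∨ c = 1 := by
        have : ∀ c : ZMod 2, c = 0 ∨ c = 1 := by decide
        exact this c
      rcases hc with rfl | rfl
      · left
        apply Subtype.ext
        rw [hA]
        simp [sympTransvection]
      · right
        obtain ⟨h, hh⟩ := exists_tv w hw
        exact ⟨h, by rw [hh, hA]⟩
  rcases hone with rfl | ⟨h, hh⟩
  · exact one_mem _
  · exact ⟨h, Subtype.ext hh⟩

end Cfsg.Agent.Lib.Sporadic.Co2Cent.Surj
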